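import Cfsg.Agent.Screen.TISub.Spread
import Cfsg.Agent.Linear.Transvection

/-!
# `⟨P, C_{O₂(N(U))}(U)⟩` modulo `C(V U)` is `SL₂`.
-/

set_option autoImplicit false
set_option linter.style.haveILetI false
set_option linter.unusedSectionVars false
set_option linter.unusedVariables false

namespace Cfsg.Agent.Screen.TISub

open Subgroup
open scoped commutatorElement

variable {G : Type*} [Group G] [Finite G]

lemma pc_cj (x : G) (V : Subgroup G) : pc (cj x V) = cj x (pc V) := by
  ext g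
  simp only [pc, mem_cj, Subgroup.mem_inf, qc_cj]
  refine and_congr_right fun _ => ?_
  constructor
  · intro h
    refine Subgroup.mem_centralizer_iff.2 fun v hv => ?_
    have h' := Subgroup.mem_centralizer_iff.1 h _ (conj_mem_cj x hv)
    calc v * (x⁻¹ * g * x) = x⁻¹ * ((x * v * x⁻¹) * g) * x := by group
      _ = x⁻¹ * (g * (x * v * x⁻¹)) * x := by rw [h']
      _ = x⁻¹ * g * x * v := by group
  · intro h
    refine Subgroup.mem_centralizer_iff.2 fun v hv => ?_
    have h' := Subgroup.mem_centralizer_iff.1 h _ (mem_cj.1 hv)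
    calc v * g = x * ((x⁻¹ * v * x) * (x⁻¹ * g * x)) * x⁻¹ := by group
      _ = x * ((x⁻¹ * g * x) * (x⁻¹ * v * x)) * x⁻¹ := by rw [h']
      _ = g * v := by group

namespace Data

variable {V U : Subgroup G} (D : Data V)

include D in
lemma pc_normalizes_sup (hA : Adj V U) : pc V ≤ normalizer (V ⊔ U : Subgroup G) := by
  intro a ha
  have key : ∀ a ∈ pc V, ∀ g ∈ V ⊔ U, a * g * a⁻¹ ∈ V ⊔ U := by
    intro a ha g hg
    obtain ⟨v, hv, u, hu, rfl⟩ := exists_mul_of_mem_sup (D.adj_comm hA) hg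
    have e : a * (v * u) * a⁻¹ = (a * v * a⁻¹) * (a * u * a⁻¹) := by group
    rw [e, pc_comm ha hv, mul_inv_cancel_right, conj_eq_comm_mul]
    exact mul_mem (mem_sup_left hv) (mul_mem
      (mem_sup_left (D.comm_mem ha (D.adj_le_pc hA hu))) (mem_sup_right hu))
  rw [Subgroup.mem_normalizer_iff]
  intro g
  refine ⟨key a ha g, fun h => ?_⟩
  have := key a⁻¹ (inv_mem ha) _ h
  simpa [mul_assoc] using this

include D in
lemma sup_normalizes (hA : Adj V U) : pc V ⊔ pc U ≤ normalizer (V ⊔ U : Subgroup G) := by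
  refine sup_le (D.pc_normalizes_sup hA) ?_
  rw [sup_comm V U]
  exact (D.adj_data hA).pc_normalizes_sup (D.back hA)

include D in
theorem exists_sl2 (hA : Adj V U) {H : Subgroup G} (hH : H = pc V ⊔ pc U)
    (hN : ((centralizer ((V ⊔ U : Subgroup G) : Set G)).subgroupOf H).Normal) :
    ∃ (F : Type) (_ : Field F) (_ : Fintype F), Fintype.card F = Nat.card V ∧
      Nonempty (↥H ⧸ (centralizer ((V ⊔ U : Subgroup G) : Set G)).subgroupOf H ≃*
        Matrix.SpecialLinearGroup (Fin 2) F) := by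
  obtain ⟨F, fF, tF, g, ν, hcard, hgm, hνm, hga, hνa, hgi, hνi, hgs, hνs, hP, hP'⟩ :=
    D.exists_coord hA
  refine ⟨F, fF, tF, hcard, ?_⟩
  classical
  have hD' := D.adj_data hA
  have hB := D.back hA
  let ε : (Fin 2 → F) → G := fun z => g (z 0) * ν (z 1)
  have hεi : Function.Injective ε := by
    intro y z h
    have h1 : (g (z 0))⁻¹ * g (y 0) = ν (z 1) * (ν (y 1))⁻¹ := by
      calc (g (z 0))⁻¹ * g (y 0) = (g (z 0))⁻¹ * ε y * (ν (y 1))⁻¹ := by
            show _ = (g (z 0))⁻¹ * (g (y 0) * ν (y 1)) * (ν (y 1))⁻¹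
            group
        _ = ν (z 1) * (ν (y 1))⁻¹ := by
            rw [h]
            show (g (z 0))⁻¹ * (g (z 0) * ν (z 1)) * (ν (y 1))⁻¹ = _
            group
    have h2 := D.adj_inf hA (h1 ▸ mul_mem (hνm (z 1)) (inv_mem (hνm (y 1))))
      (mul_mem (inv_mem (hgm (z 0))) (hgm (y 0)))
    rw [h2] at h1
    have e0 : y 0 = z 0 := hgi (inv_mul_eq_one.1 h2).symm
    have e1 : y 1 = z 1 := hνi (mul_inv_eq_one.1 h1.symm).symm
    funext i
    fin_cases i <;> assumption
  -- action of the generators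
  have hactP : ∀ a ∈ pc V, ∀ c : F, (∀ d, ⁅a, ν d⁆ = g (c * d)) → ∀ z : Fin 2 → F,
      a * ε z * a⁻¹ = ε (Matrix.mulVec (Matrix.transvection 0 1 c) z) := by
    intro a ha c hc z
    have e : a * ε z * a⁻¹ = (a * g (z 0) * a⁻¹) * (a * ν (z 1) * a⁻¹) := by
      show a * (g (z 0) * ν (z 1)) * a⁻¹ = _
      group
    rw [e, pc_comm ha (hgm _), mul_inv_cancel_right, conj_eq_comm_mul, hc, ← mul_assoc, ← hga]
    simp [ε, Matrix.transvection, Matrix.add_mulVec, Matrix.single_mulVec]
  have hactU : ∀ b ∈ pc U, ∀ c : F, (∀ d, ⁅b, g d⁆ = ν (c * d)) → ∀ z : Fin 2 → F,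
      b * ε z * b⁻¹ = ε (Matrix.mulVec (Matrix.transvection 1 0 c) z) := by
    intro b hb c hc z
    have e : b * ε z * b⁻¹ = (b * g (z 0) * b⁻¹) * (b * ν (z 1) * b⁻¹) := by
      show b * (g (z 0) * ν (z 1)) * b⁻¹ = _
      group
    rw [e, pc_comm hb (hνm _), mul_inv_cancel_right, conj_eq_comm_mul, hc,
      ← D.adj_comm hA _ (hgm _) _ (hνm _), mul_assoc, ← hνa]
    simp [ε, Matrix.transvection, Matrix.add_mulVec, Matrix.single_mulVec, add_comm]
  have hU : ∀ b ∈ pc U, ∃ c : F, ∀ d, ⁅b, g d⁆ = ν (c * d) := by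
    intro b hb
    by_cases hbV : ∀ v ∈ V, b * v = v * b
    · refine ⟨0, fun d => ?_⟩
      have h0 : ν 0 = 1 := by
        have := hνa 0 0
        rwa [add_zero, left_eq_mul] at this
      rw [zero_mul, h0, commutatorElement_eq_one_iff_mul_comm.2 (hbV _ (hgm d))]
    · obtain ⟨f, hf, hfb⟩ := hD'.inv_map hB hb hbV
      obtain ⟨c, hc⟩ := hP f hf
      refine ⟨c⁻¹, fun d => ?_⟩
      obtain ⟨y, hy⟩ := hνs _ (hD'.comm_mem hb (hD'.adj_le_pc hB (hgm d)))
      have h1 := hfb _ (hgm d)
      rw [← hy, hc] at h1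
      have h2 := hgi h1
      rw [← hy]
      by_cases hc0 : c = 0
      · exfalso
        apply hbV
        intro v hv
        have h3 := hfb v hv
        obtain ⟨y', hy'⟩ := hνs _ (hD'.comm_mem hb (hD'.adj_le_pc hB hv))
        rw [← hy', hc, hc0, zero_mul] at h3
        have h0 : g 0 = 1 := by
          have := hga 0 0
          rwa [add_zero, left_eq_mul] at this
        rw [← h3, h0, one_mul, mul_one]
      · rw [← h2, inv_mul_cancel_left₀ hc0]
  let T : Subgroup G :=
    { carrier := {h | ∃ A : Matrix.SpecialLinearGroup (Fin 2) F, ∀ z, h * ε z * h⁻¹ =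
        ε (Matrix.mulVec A.1 z)}
      mul_mem' := by
        rintro a b ⟨A, hA⟩ ⟨B, hB⟩
        refine ⟨A * B, fun z => ?_⟩
        calc a * b * ε z * (a * b)⁻¹ = a * (b * ε z * b⁻¹) * a⁻¹ := by group
          _ = _ := by rw [hB, hA, Matrix.mulVec_mulVec]; rfl
      one_mem' := ⟨1, fun z => by simp⟩
      inv_mem' := by
        rintro a ⟨A, hA⟩
        refine ⟨A⁻¹, fun z => ?_⟩
        have h := hA (Matrix.mulVec (A⁻¹).1 z)
        have e : (A : Matrix (Fin 2) (Fin 2) F).mulVec (Matrix.mulVec (A⁻¹).1 z) = z := by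
          rw [Matrix.mulVec_mulVec, ← Matrix.SpecialLinearGroup.coe_mul, mul_inv_cancel,
            Matrix.SpecialLinearGroup.coe_one, Matrix.one_mulVec]
        rw [e] at h
        rw [← h]; group }
  have hHT : H ≤ T := by
    rw [hH]
    refine sup_le (fun a ha => ?_) (fun b hb => ?_)
    · obtain ⟨c, hc⟩ := hP a ha
      exact ⟨Matrix.SpecialLinearGroup.transvection (by decide : (0 : Fin 2) ≠ 1) c, hactP a ha c hc⟩
    · obtain ⟨c, hc⟩ := hU b hb
      exact ⟨Matrix.SpecialLinearGroup.transvection (by decide : (1 : Fin 2) ≠ 0) c, hactU b hb c hc⟩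
  have huniq : ∀ A B : Matrix.SpecialLinearGroup (Fin 2) F,
      (∀ z, ε (Matrix.mulVec A.1 z) = ε (Matrix.mulVec B.1 z)) → A = B := by
    intro A B h
    refine Subtype.ext (Matrix.ext fun i j => ?_)
    have := congrFun (hεi (h (Pi.single j 1))) i
    simpa using this
  choose θ hθ using fun h : H => hHT h.2
  let Θ : ↥H →* Matrix.SpecialLinearGroup (Fin 2) F := MonoidHom.mk' θ fun a b => huniq _ _ fun z => by
    rw [← hθ (a * b) z, Matrix.SpecialLinearGroup.coe_mul, ← Matrix.mulVec_mulVec, ← hθ a,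
      ← hθ b z, Subgroup.coe_mul]
    group
  have hΘs : Function.Surjective Θ := by
    rw [← MonoidHom.range_eq_top]
    refine Linear.eq_top_of_transvection_mem fun i j hij c => ?_
    fin_cases i <;> fin_cases j <;> first | exact absurd rfl hij | skip
    · obtain ⟨a, ha, hac⟩ := hP' c
      refine ⟨⟨a, hH ▸ mem_sup_left ha⟩, huniq _ _ fun z => ?_⟩
      exact (hθ ⟨a, _⟩ z).symm.trans (hactP a ha c hac z)
    · by_cases hc : c = 0
      · refine ⟨1, ?_⟩
        rw [map_one]
        apply Subtype.ext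
        simp [Matrix.SpecialLinearGroup.transvection, hc]
      obtain ⟨a, ha, hac⟩ := hP' c⁻¹
      have haU : ¬ ∀ u ∈ U, a * u = u * a := by
        intro h
        have h1 := hac c
        rw [commutatorElement_eq_one_iff_mul_comm.2 (h _ (hνm c)), inv_mul_cancel₀ hc] at h1
        have h0 : g 0 = 1 := by
          have := hga 0 0
          rwa [add_zero, left_eq_mul] at this
        exact zero_ne_one (hgi (h0.trans h1))
      obtain ⟨b, hb, hba⟩ := D.inv_map hA ha haU
      refine ⟨⟨b, hH ▸ mem_sup_right hb⟩, huniq _ _ fun z => ?_⟩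
      refine (hθ ⟨b, _⟩ z).symm.trans (hactU b hb c (fun d => ?_) z)
      have h1 := hba _ (hνm (c * d))
      rwa [hac, inv_mul_cancel_left₀ hc] at h1
  have hker : Θ.ker = (centralizer ((V ⊔ U : Subgroup G) : Set G)).subgroupOf H := by
    ext h
    rw [MonoidHom.mem_ker, Subgroup.mem_subgroupOf, Subgroup.mem_centralizer_iff]
    constructor
    · intro hh w hw
      obtain ⟨v, hv, u, hu, rfl⟩ := exists_mul_of_mem_sup (D.adj_comm hA) hw
      obtain ⟨d, rfl⟩ := hgs v hv
      obtain ⟨d', rfl⟩ := hνs u hu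
      have := hθ h ![d, d']
      have hh' : θ h = 1 := hh
      rw [hh'] at this
      simp [ε] at this
      exact (mul_inv_eq_iff_eq_mul.1 this).symm
    · intro hh
      refine huniq _ _ fun z => ?_
      refine (hθ h z).symm.trans ?_
      have := hh (ε z) (mul_mem (mem_sup_left (hgm _)) (mem_sup_right (hνm _)))
      rw [← this, mul_inv_cancel_right]
      simp
  exact ⟨(QuotientGroup.quotientMulEquivOfEq hker.symm).trans
    (QuotientGroup.quotientKerEquivOfSurjective Θ hΘs)⟩

end Data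

end Cfsg.Agent.Screen.TISub
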