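import Cfsg.Agent.Screen.TISub.Basic

/-!
# Conjugates of `V` inside `O₂(N(V))`: the pairing, symmetry, and `P = Q`.
-/

set_option autoImplicit false
set_option linter.style.haveILetI false
set_option linter.unusedSectionVars false
set_option linter.unusedVariables false

namespace Cfsg.Agent.Screen.TISub

open Subgroup
open scoped commutatorElement

variable {G : Type*} [Group G] [Finite G]

/-- A normal subgroup of a 2-group contains a nontrivial central element. -/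
lemma exists_fixed {S X : Subgroup G} (hS : IsPGroup 2 ↥S) (hXS : X ≤ S) (hX : X ≠ ⊥)
    (hn : ∀ s ∈ S, ∀ a ∈ X, s * a * s⁻¹ ∈ X) : ∃ w ∈ X, w ≠ 1 ∧ ∀ s ∈ S, s * w = w * s := by
  haveI : (X.subgroupOf S).Normal := ⟨fun a ha s => hn s s.2 a ha⟩
  haveI : Group.IsNilpotent ↥S := hS.isNilpotent
  have hne : X.subgroupOf S ≠ ⊥ := fun e => hX (by
    rw [Subgroup.subgroupOf_eq_bot, disjoint_iff, inf_eq_left.2 hXS] at e
    exact e)
  obtain ⟨w, hw, hw1, hwc⟩ := OddLocal.exists_ne_one_mem_center_of_normal (X.subgroupOf S) hne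
  exact ⟨w, hw, fun e => hw1 (Subtype.ext e), fun s hs =>
    congrArg Subtype.val (Subgroup.mem_center_iff.1 hwc ⟨s, hs⟩)⟩

omit [Finite G] in
lemma conj_eq_comm_mul (a u : G) : a * u * a⁻¹ = ⁅a, u⁆ * u := by
  simp only [commutatorElement_def]; group

namespace Data

variable {V U U' : Subgroup G} (D : Data V)

include D in
lemma adj_le_pc (hA : Adj V U) : U ≤ pc V := fun u hu =>
  ⟨hA.2.2 hu, Subgroup.mem_centralizer_iff.2 fun v hv =>
    D.comm_of_normalizes hA.1 hA.2.1 (hA.2.2.trans (qc_le V)) hv hu⟩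

include D in
lemma adj_data (hA : Adj V U) : Data U := by
  obtain ⟨x, rfl⟩ := hA.1
  exact D.conj x

include D in
lemma adj_card (hA : Adj V U) : Nat.card U = Nat.card V := by
  obtain ⟨x, rfl⟩ := hA.1
  exact card_cj x V

include D in
lemma adj_inf (hA : Adj V U) {w : G} (h1 : w ∈ U) (h2 : w ∈ V) : w = 1 := by
  by_contra h
  exact hA.2.1 (D.eq_of_mem' hA.1 h1 h2 h)

include D in
lemma adj_conj (hA : Adj V U) {m : G} (hm : m ∈ normalizer (V : Set G)) : Adj V (cj m U) := by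
  obtain ⟨x, hx⟩ := hA.1
  refine ⟨⟨m * x, by rw [hx, cj_cj]⟩, fun e => hA.2.1 ?_, ?_⟩
  · rw [← cj_inv_cj m U, e, cj_eq_self_iff.2 (inv_mem hm)]
  · intro g hg
    have := conj_mem_qc hm (hA.2.2 (mem_cj.1 hg))
    simpa [mul_assoc] using this

include D in
lemma comm_U (hA : Adj V U) {a u : G} (ha : a ∈ pc V) (hu : u ∈ U) (hu1 : u ≠ 1)
    (hc : a * u = u * a) {u' : G} (hu' : u' ∈ U) : a * u' = u' * a := by
  obtain ⟨x, hx⟩ := hA.1
  have hN : a ∈ normalizer (U : Set G) := by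
    rw [hx] at hu ⊢
    exact D.mem_normalizer_of_commute hu hu1 hc
  have h1 : ⁅a, u'⁆ ∈ U := by
    rw [commutatorElement_def]
    exact mul_mem ((Subgroup.mem_normalizer_iff.1 hN _).1 hu') (inv_mem hu')
  exact commutatorElement_eq_one_iff_mul_comm.1
    (D.adj_inf hA h1 (D.comm_mem ha (D.adj_le_pc hA hu')))

/-- `U'` pairs regularly with `U`. -/
def Reg (U U' : Subgroup G) : Prop := ∀ u ∈ U, u ≠ 1 → ∀ a ∈ U', a * u = u * a → a = 1

lemma Reg.symm (h : Reg U U') : Reg U' U := by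
  intro a ha ha1 u hu hc
  by_contra hu1
  exact ha1 (h u hu hu1 a ha hc.symm)

include D in
lemma exists_partner (hA : Adj V U) : ∃ U', Adj V U' ∧ Reg U U' := by
  by_cases hall : ∀ m ∈ normalizer (V : Set G), ∀ u ∈ U, ∀ a ∈ cj m U, a * u = u * a
  · exfalso
    set S : Set G := (V : Set G) ∪ {g | ∃ m ∈ normalizer (V : Set G), g ∈ cj m U} with hSdef
    set N := Subgroup.closure S with hNdef
    have hNP : N ≤ pc V := (Subgroup.closure_le _).2 (by
      rintro g (hg | ⟨m, hm, hg⟩)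
      · exact D.le_pc hg
      · exact D.adj_le_pc (D.adj_conj hA hm) hg)
    have hn : ∀ m ∈ normalizer (V : Set G), ∀ a ∈ N, m * a * m⁻¹ ∈ N := by
      intro m hm a ha
      have hle : N ≤ N.comap (MulAut.conj m).toMonoidHom := (Subgroup.closure_le _).2 (by
        rintro g (hg | ⟨n, hn', hg⟩)
        · exact Subgroup.subset_closure (Or.inl ((Subgroup.mem_normalizer_iff.1 hm g).1 hg))
        · refine Subgroup.subset_closure (Or.inr ⟨m * n, mul_mem hm hn', ?_⟩)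
          rw [← cj_cj]
          exact conj_mem_cj m hg)
      exact hle ha
    obtain ⟨u0, hu0, hu01⟩ := (Subgroup.bot_or_exists_ne_one U).resolve_left
      (D.adj_data hA).ne_bot
    have hu0N : u0 ∈ N := Subgroup.subset_closure (Or.inr ⟨1, one_mem _, by rwa [cj_one]⟩)
    refine hu01 (D.adj_inf hA hu0 (D.center_eq (fun v hv => Subgroup.subset_closure (Or.inl hv))
      hNP hn hu0N ?_))
    have hle : N ≤ Subgroup.centralizer {u0} := (Subgroup.closure_le _).2 (by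
      rintro g (hg | ⟨m, hm, hg⟩)
      · exact Subgroup.mem_centralizer_iff.2 fun z hz => by
          rw [Set.mem_singleton_iff.1 hz]
          exact pc_comm (D.adj_le_pc hA hu0) hg
      · exact Subgroup.mem_centralizer_iff.2 fun z hz => by
          rw [Set.mem_singleton_iff.1 hz]
          exact (hall m hm u0 hu0 g hg).symm)
    exact fun a ha => (Subgroup.mem_centralizer_iff.1 (hle ha) u0 rfl).symm
  · push Not at hall
    obtain ⟨m, hm, u1, hu1, a1, ha1, hne⟩ := hall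
    refine ⟨cj m U, D.adj_conj hA hm, fun u hu hu' a ha hc => ?_⟩
    by_contra hane
    have h1 := D.comm_U hA (D.adj_le_pc (D.adj_conj hA hm) ha) hu hu' hc hu1
    exact hne (D.comm_U (D.adj_conj hA hm) (D.adj_le_pc hA hu1) ha hane h1.symm ha1).symm

include D in
lemma reg_surj (hA : Adj V U) (hA' : Adj V U') (hR : Reg U U') {u : G} (hu : u ∈ U) (hu1 : u ≠ 1)
    {v : G} (hv : v ∈ V) : ∃ a ∈ U', ⁅a, u⁆ = v := by
  have huP := D.adj_le_pc hA hu
  let f : U' → V := fun a => ⟨⁅(a : G), u⁆, D.comm_mem (D.adj_le_pc hA' a.2) huP⟩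
  have hf : Function.Injective f := by
    intro a b hab
    have hab' : ⁅(a : G), u⁆ = ⁅(b : G), u⁆ := congrArg Subtype.val hab
    have h1 : ⁅(a : G) * b, u⁆ = 1 := by
      rw [D.comm_mulL (D.adj_le_pc hA' a.2) (D.adj_le_pc hA' b.2) huP, hab',
        D.sq (D.comm_mem (D.adj_le_pc hA' b.2) huP)]
    have h2 := hR u hu hu1 _ (mul_mem a.2 b.2) (commutatorElement_eq_one_iff_mul_comm.1 h1)
    exact Subtype.ext ((mul_eq_one_iff_eq_inv.1 h2).trans ((D.adj_data hA').inv_eq b.2))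
  have hb := (Nat.bijective_iff_injective_and_card f).2 ⟨hf, D.adj_card hA'⟩
  obtain ⟨a, ha⟩ := hb.2 ⟨v, hv⟩
  exact ⟨a, a.2, congrArg Subtype.val ha⟩

include D in
lemma surj (hA : Adj V U) {u : G} (hu : u ∈ U) (hu1 : u ≠ 1) {v : G} (hv : v ∈ V) :
    ∃ a ∈ pc V, ⁅a, u⁆ = v := by
  obtain ⟨U', hA', hR⟩ := D.exists_partner hA
  obtain ⟨a, ha, h⟩ := D.reg_surj hA hA' hR hu hu1 hv
  exact ⟨a, D.adj_le_pc hA' ha, h⟩

include D in
lemma decomp (hA : Adj V U) (hA' : Adj V U') (hR : Reg U U') {a : G} (ha : a ∈ pc V) :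
    ∃ b ∈ U', ∀ u ∈ U, a * b * u = u * (a * b) := by
  obtain ⟨u0, hu0, hu01⟩ := (Subgroup.bot_or_exists_ne_one U).resolve_left (D.adj_data hA).ne_bot
  have hu0P := D.adj_le_pc hA hu0
  obtain ⟨b, hb, hbu⟩ := D.reg_surj hA hA' hR hu0 hu01 (D.comm_mem ha hu0P)
  have hbP := D.adj_le_pc hA' hb
  refine ⟨b, hb, fun u hu => D.comm_U hA (mul_mem ha hbP) hu0 hu01 ?_ hu⟩
  apply commutatorElement_eq_one_iff_mul_comm.1
  rw [D.comm_mulL ha hbP hu0P, hbu, D.sq (D.comm_mem ha hu0P)]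

/-- `V ⊔ U` as a product. -/
lemma exists_mul_of_mem_sup (hc : ∀ v ∈ V, ∀ u ∈ U, v * u = u * v) {g : G} (hg : g ∈ V ⊔ U) :
    ∃ v ∈ V, ∃ u ∈ U, g = v * u := by
  let S : Subgroup G :=
    { carrier := {g | ∃ v ∈ V, ∃ u ∈ U, g = v * u}
      mul_mem' := by
        rintro a b ⟨v, hv, u, hu, rfl⟩ ⟨v', hv', u', hu', rfl⟩
        refine ⟨v * v', mul_mem hv hv', u * u', mul_mem hu hu', ?_⟩
        rw [mul_assoc, ← mul_assoc u, ← hc v' hv' u hu]; group
      one_mem' := ⟨1, one_mem _, 1, one_mem _, by simp⟩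
      inv_mem' := by
        rintro a ⟨v, hv, u, hu, rfl⟩
        refine ⟨v⁻¹, inv_mem hv, u⁻¹, inv_mem hu, ?_⟩
        rw [mul_inv_rev, hc v⁻¹ (inv_mem hv) u⁻¹ (inv_mem hu)] }
  have h1 : V ≤ S := fun v hv => ⟨v, hv, 1, one_mem _, by simp⟩
  have h2 : U ≤ S := fun u hu => ⟨1, one_mem _, u, hu, by simp⟩
  exact sup_le h1 h2 hg

include D in
lemma adj_comm (hA : Adj V U) : ∀ v ∈ V, ∀ u ∈ U, v * u = u * v := fun v hv u hu =>
  (pc_comm (D.adj_le_pc hA hu) hv).symm

include D in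
lemma cbp (hA : Adj V U) {c : G} (hc : c ∈ pc V)
    (hcB : ∀ b ∈ pc V, (∀ u ∈ U, b * u = u * b) → c * b = b * c) :
    ∃ v ∈ V, ∃ u ∈ U, c = v * u := by
  obtain ⟨U', hA', hR⟩ := D.exists_partner hA
  obtain ⟨b, hb, hbc⟩ := D.decomp hA' hA hR.symm hc
  have hUU : ∀ x ∈ U, ∀ y ∈ U, x * y = y * x := fun x hx y hy => (D.adj_data hA).comm hx hy
  have hcb : c * b ∈ pc V := mul_mem hc (D.adj_le_pc hA hb)
  have hB : ∀ p ∈ pc V, (∀ u ∈ U, p * u = u * p) → c * b * p = p * (c * b) := by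
    intro p hp hpu
    rw [mul_assoc, ← hpu b hb, ← mul_assoc, hcB p hp hpu, mul_assoc]
  have hV : c * b ∈ V := by
    refine D.center_eq D.le_pc le_rfl (fun m hm a ha => conj_mem_pc hm ha) hcb fun a ha => ?_
    obtain ⟨d, hd, hda⟩ := D.decomp hA hA' hR ha
    have hdP := D.adj_le_pc hA' hd
    have h1 : c * b * (a * d) = a * d * (c * b) := hB _ (mul_mem ha hdP) hda
    have h2 : c * b * d = d * (c * b) := hbc d hd
    calc a * (c * b) = a * d * (d⁻¹ * (c * b)) := by group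
      _ = a * d * ((c * b) * d⁻¹) := by
          congr 1
          calc d⁻¹ * (c * b) = d⁻¹ * (c * b * d) * d⁻¹ := by group
            _ = c * b * d⁻¹ := by rw [h2]; group
      _ = c * b * a := by rw [← mul_assoc, ← h1]; group
  exact ⟨c * b, hV, b⁻¹, inv_mem hb, by group⟩

include D in
lemma central_mem {c : G} (hc : c ∈ normalizer (V : Set G))
    (hcQ : ∀ q ∈ qc V, q * c = c * q) : c ∈ V := by
  have hP : c ∈ pc V := ⟨D.cq c hc hcQ, Subgroup.mem_centralizer_iff.2 fun v hv =>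
    hcQ v (D.le_qc_self hv)⟩
  exact D.center_eq D.le_pc le_rfl (fun m hm a ha => conj_mem_pc hm ha) hP
    fun a ha => hcQ a ha.1

include D in
/-- The heart of the symmetry argument. -/
lemma step (hA : Adj V U) {S0 : Subgroup G}
    (hS0 : S0 ≤ normalizer (V : Set G)) (hS0p : IsPGroup 2 ↥S0)
    (hB : ∀ b ∈ pc V, (∀ u ∈ U, b * u = u * b) → b ∈ S0) {t : G}
    (htU : t ∈ normalizer (U : Set G)) (htV : t ∉ normalizer (V : Set G))
    (htS : ∀ s, s ∈ S0 ↔ t * s * t⁻¹ ∈ S0) : ∃ a ∈ pc V, cj t V = cj a U := by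
  have hVS : V ≤ S0 := fun v hv => hB v (D.le_pc hv) fun u hu => D.adj_comm hA v hv u hu
  set X := cj t V with hX
  have hXS : X ≤ S0 := fun g hg => by
    have := (htS _).1 (hVS (mem_cj.1 hg))
    simpa [mul_assoc] using this
  have hXn : ∀ s ∈ S0, ∀ a ∈ X, s * a * s⁻¹ ∈ X := by
    intro s hs a ha
    have hs' : t⁻¹ * s * t ∈ S0 := (htS _).2 (by simpa [mul_assoc] using hs)
    rw [hX, mem_cj] at ha ⊢
    have := (Subgroup.mem_normalizer_iff.1 (hS0 hs') _).1 ha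
    simpa [mul_assoc] using this
  obtain ⟨w, hwX, hw1, hwc⟩ := exists_fixed hS0p hXS (D.conj t).ne_bot hXn
  have hXV : X ≠ V := fun e => htV (cj_eq_self_iff.1 e)
  have hwV : w ∉ V := fun h => hXV (D.eq_of_mem' ⟨t, rfl⟩ hwX h hw1)
  have hwM : w ∈ normalizer (V : Set G) := hS0 (hXS hwX)
  have hwB : ∀ b ∈ pc V, (∀ u ∈ U, b * u = u * b) → w * b * w⁻¹ = b := by
    intro b hb hbu
    rw [← hwc b (hB b hb hbu), mul_inv_cancel_right]
  have hwv : ∀ v ∈ V, w * v * w⁻¹ = v := fun v hv =>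
    hwB v (D.le_pc hv) fun u hu => D.adj_comm hA v hv u hu
  -- `[a, w] ∈ V` for all `a ∈ P`
  obtain ⟨U', hA', hR⟩ := D.exists_partner hA
  have hkU : ∀ u' ∈ U', u'⁻¹ * (w * u' * w⁻¹) ∈ V := by
    intro u' hu'
    have huP := D.adj_le_pc hA' hu'
    have hwu : w * u' * w⁻¹ ∈ pc V := conj_mem_pc hwM huP
    set c := u'⁻¹ * (w * u' * w⁻¹) with hc
    have hcP : c ∈ pc V := mul_mem (inv_mem huP) hwu
    obtain ⟨v, hv, x, hx, hcx⟩ := D.cbp hA hcP fun b hb hbu => by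
      apply commutatorElement_eq_one_iff_mul_comm.1
      have e : ⁅w * u' * w⁻¹, b⁆ = ⁅u', b⁆ := by
        conv_lhs => rw [← hwB b hb hbu]
        have e' : ⁅w * u' * w⁻¹, w * b * w⁻¹⁆ = w * ⁅u', b⁆ * w⁻¹ := by
          simp only [commutatorElement_def]; group
        rw [e', hwv _ (D.comm_mem huP hb)]
      rw [hc, D.comm_mulL (inv_mem huP) hwu hb, e, ← D.comm_mulL (inv_mem huP) huP hb,
        inv_mul_cancel, commutatorElement_one_left]
    -- `u' v x` is an involution, so `x = 1`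
    have hu'2 : u' * u' = 1 := (D.adj_data hA').sq hu'
    have e1 : w * u' * w⁻¹ = u' * (v * x) := by rw [← hcx, hc]; group
    have e2 : u' * (v * x) * (u' * (v * x)) = 1 := by
      rw [← e1]
      calc w * u' * w⁻¹ * (w * u' * w⁻¹) = w * (u' * u') * w⁻¹ := by group
        _ = 1 := by rw [hu'2]; group
    have hx1 : x = 1 := by
      by_cases hu'1 : u' = 1
      · subst hu'1
        have h1 : c = 1 := by rw [hc]; group
        rw [hcx] at h1
        have hxv : x = v⁻¹ := eq_inv_of_mul_eq_one_right h1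
        exact D.adj_inf hA hx (hxv ▸ inv_mem hv)
      refine hR.symm u' hu' hu'1 x hx ?_
      have hxP := D.adj_le_pc hA hx
      have hvu : v * u' = u' * v := (pc_comm huP hv).symm
      have hvx : v * x = x * v := (pc_comm hxP hv).symm
      have e3 : u' * x * (u' * x) = 1 := by
        calc u' * x * (u' * x) = u' * x * (u' * x) * (v * v) := by rw [D.sq hv, mul_one]
          _ = u' * (v * x) * (u' * (v * x)) := by
              have hvm : ∀ p ∈ pc V, p * v = v * p := fun p hp => pc_comm hp hv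
              have h4 := hvm _ (mul_mem huP hxP)
              calc u' * x * (u' * x) * (v * v) = u' * x * ((u' * x) * v) * v := by group
                _ = u' * x * (v * (u' * x)) * v := by rw [h4]
                _ = (u' * x * v) * (u' * x * v) := by group
                _ = u' * (v * x) * (u' * (v * x)) := by rw [mul_assoc u' x v, ← hvx]
          _ = 1 := e2
      have hxi : x⁻¹ = x := (D.adj_data hA).inv_eq hx
      have hui : u'⁻¹ = u' := (D.adj_data hA').inv_eq hu'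
      calc x * u' = x⁻¹ * u'⁻¹ := by rw [hxi, hui]
        _ = (u' * x)⁻¹ := by group
        _ = u' * x := inv_eq_of_mul_eq_one_left e3
    rw [hc] at hcx
    show u'⁻¹ * (w * u' * w⁻¹) ∈ V
    rw [hcx, hx1, mul_one]; exact hv
  have key : ∀ a ∈ pc V, a⁻¹ * (w * a * w⁻¹) ∈ V := by
    intro a ha
    obtain ⟨b, hb, hab⟩ := D.decomp hA hA' hR ha
    have hbP := D.adj_le_pc hA' hb
    have e1 : w * (a * b) * w⁻¹ = a * b := hwB _ (mul_mem ha hbP) hab
    have h2 := hkU b⁻¹ (inv_mem hb)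
    rw [inv_inv] at h2
    have h3 : b * (w * b⁻¹ * w⁻¹) = a⁻¹ * (w * a * w⁻¹) := by
      calc b * (w * b⁻¹ * w⁻¹) = a⁻¹ * (a * b) * (w * b⁻¹ * w⁻¹) := by group
        _ = a⁻¹ * (w * (a * b) * w⁻¹) * (w * b⁻¹ * w⁻¹) := by rw [e1]
        _ = a⁻¹ * (w * a * w⁻¹) := by group
    rwa [h3] at h2
  -- the kernel of the action on `V` and `P/V` is a normal 2-subgroup of `N(V)`
  let K : Subgroup G :=
    { carrier := {m | m ∈ normalizer (V : Set G) ∧ (∀ v ∈ V, m * v * m⁻¹ = v) ∧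
        ∀ a ∈ pc V, a⁻¹ * (m * a * m⁻¹) ∈ V}
      mul_mem' := by
        rintro m n ⟨hm, hmv, hma⟩ ⟨hn, hnv, hna⟩
        refine ⟨mul_mem hm hn, fun v hv => ?_, fun a ha => ?_⟩
        · calc m * n * v * (m * n)⁻¹ = m * (n * v * n⁻¹) * m⁻¹ := by group
            _ = v := by rw [hnv v hv, hmv v hv]
        · have e : a⁻¹ * (m * n * a * (m * n)⁻¹) =
              a⁻¹ * (m * a * m⁻¹) * (m * (a⁻¹ * (n * a * n⁻¹)) * m⁻¹) := by group
          rw [e, hmv _ (hna a ha)]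
          exact mul_mem (hma a ha) (hna a ha)
      one_mem' := ⟨one_mem _, by simp, fun a _ => by simp⟩
      inv_mem' := by
        rintro m ⟨hm, hmv, hma⟩
        refine ⟨inv_mem hm, fun v hv => ?_, fun a ha => ?_⟩
        · conv_lhs => rw [← hmv v hv]
          group
        · have h := hma a ha
          have e : a⁻¹ * (m⁻¹ * a * m⁻¹⁻¹) = (m⁻¹ * (a⁻¹ * (m * a * m⁻¹)) * m)⁻¹ := by group
          have e' : m⁻¹ * (a⁻¹ * (m * a * m⁻¹)) * m = a⁻¹ * (m * a * m⁻¹) := by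
            conv_lhs => rw [← hmv _ h]
            group
          rw [e, e']
          exact inv_mem h }
  have hKn : ∀ g ∈ normalizer (V : Set G), ∀ m ∈ K, g * m * g⁻¹ ∈ K := by
    rintro g hg m ⟨hm, hmv, hma⟩
    refine ⟨mul_mem (mul_mem hg hm) (inv_mem hg), fun v hv => ?_, fun a ha => ?_⟩
    · have hv' : g⁻¹ * v * g ∈ V := by
        have := (Subgroup.mem_normalizer_iff.1 (inv_mem hg) _).1 hv
        rwa [inv_inv] at this
      calc g * m * g⁻¹ * v * (g * m * g⁻¹)⁻¹ = g * (m * (g⁻¹ * v * g) * m⁻¹) * g⁻¹ := by group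
        _ = v := by rw [hmv _ hv']; group
    · have ha' : g⁻¹ * a * g ∈ pc V := by
        have := conj_mem_pc (inv_mem hg) ha
        rwa [inv_inv] at this
      have h := (Subgroup.mem_normalizer_iff.1 hg _).1 (hma _ ha')
      have e : g * ((g⁻¹ * a * g)⁻¹ * (m * (g⁻¹ * a * g) * m⁻¹)) * g⁻¹ =
          a⁻¹ * (g * m * g⁻¹ * a * (g * m * g⁻¹)⁻¹) := by group
      rwa [e] at h
  have hodd : ∀ k ∈ K, Odd (orderOf k) → k = 1 := by
    rintro k ⟨hk, hkv, hka⟩ ⟨j, hj⟩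
    have hvn : ∀ v ∈ V, v ^ orderOf k = v := fun v hv => by
      rw [hj, pow_succ, pow_mul, pow_two, D.sq hv, one_pow, one_mul]
    have hiter : ∀ z c : G, k * z * k⁻¹ = z * c → k * c * k⁻¹ = c →
        ∀ i : ℕ, k ^ i * z * (k ^ i)⁻¹ = z * c ^ i := by
      intro z c hzc hcc i
      induction i with
      | zero => simp
      | succ i ih =>
        calc k ^ (i + 1) * z * (k ^ (i + 1))⁻¹ = k * (k ^ i * z * (k ^ i)⁻¹) * k⁻¹ := by
              rw [pow_succ']; group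
          _ = (k * z * k⁻¹) * (k * c * k⁻¹) ^ i := by rw [ih, conj_pow]; group
          _ = z * c ^ (i + 1) := by rw [hzc, hcc, pow_succ', mul_assoc]
    have hfix : ∀ a ∈ pc V, k * a * k⁻¹ = a := by
      intro a ha
      have h := hiter a (a⁻¹ * (k * a * k⁻¹)) (by group) (hkv _ (hka a ha)) (orderOf k)
      rw [pow_orderOf_eq_one, hvn _ (hka a ha)] at h
      have h' : a = k * a * k⁻¹ := by simpa [mul_assoc] using h
      exact h'.symm
    have hfixQ : ∀ q ∈ qc V, k * q * k⁻¹ = q := by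
      intro q hq
      set c := q⁻¹ * (k * q * k⁻¹) with hc
      have hcQ : c ∈ qc V := mul_mem (inv_mem hq) (conj_mem_qc hk hq)
      have hcC : ∀ a ∈ pc V, c * a * c⁻¹ = a := by
        intro a ha
        have h1 : q * a * q⁻¹ ∈ pc V := conj_mem_pc (qc_le V hq) ha
        have h2 : k⁻¹ * a * k = a := by
          conv_lhs => rw [← hfix a ha]
          group
        calc c * a * c⁻¹ = q⁻¹ * (k * (q * (k⁻¹ * a * k) * q⁻¹) * k⁻¹) * q := by rw [hc]; group
          _ = a := by rw [h2, hfix _ h1]; group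
      have hcP : c ∈ pc V := ⟨hcQ, Subgroup.mem_centralizer_iff.2 fun v hv => by
        have := mul_inv_eq_iff_eq_mul.1 (hcC v (D.le_pc hv))
        exact this.symm⟩
      have hcV : c ∈ V := D.center_eq D.le_pc le_rfl (fun m hm a ha => conj_mem_pc hm ha) hcP
        fun a ha => (mul_inv_eq_iff_eq_mul.1 (hcC a ha)).symm
      have h := hiter q c (by rw [hc]; group) (hkv _ hcV) (orderOf k)
      rw [pow_orderOf_eq_one, hvn _ hcV] at h
      have h' : c = 1 := by simpa using h.symm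
      rw [hc, inv_mul_eq_one] at h'
      exact h'.symm
    have hkQ : k ∈ qc V := D.cq k hk fun q hq => (mul_inv_eq_iff_eq_mul.1 (hfixQ q hq)).symm
    obtain ⟨n, hn⟩ := (IsPGroup.iff_orderOf.1 (qc_isPGroup V)) ⟨k, hkQ⟩
    rw [Subgroup.orderOf_mk] at hn
    rcases Nat.eq_zero_or_pos n with rfl | hpos
    · exact orderOf_eq_one_iff.1 (by simpa using hn)
    · have : Even (orderOf k) := by rw [hn]; exact Nat.even_pow.2 ⟨even_two, hpos.ne'⟩
      exact absurd this (Nat.not_even_iff_odd.2 ⟨j, hj⟩)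
  have hKp : IsPGroup 2 ↥K := by
    intro k
    obtain ⟨e, n, hn, hen⟩ := Nat.exists_eq_two_pow_mul_odd (orderOf_pos (k : G)).ne'
    refine ⟨e, Subtype.ext ?_⟩
    show (k : G) ^ 2 ^ e = 1
    refine hodd _ (pow_mem k.2 _) ?_
    rw [orderOf_pow' _ (by positivity), hen, Nat.gcd_mul_right_left,
      Nat.mul_div_cancel_left _ (by positivity)]
    exact hn
  have hwQ : w ∈ qc V := le_qc (K := K) (fun m hm => hm.1) hKn hKp ⟨hwM, hwv, key⟩
  have hwP : w ∈ pc V := ⟨hwQ, Subgroup.mem_centralizer_iff.2 fun v hv => hwc v (hVS hv)⟩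
  obtain ⟨v, hv, u, hu, hwu⟩ := D.cbp hA hwP fun b hb hbu => (hwc b (hB b hb hbu)).symm
  have hu1 : u ≠ 1 := fun e => hwV (by rw [hwu, e, mul_one]; exact hv)
  obtain ⟨a, ha, hav⟩ := D.surj hA hu hu1 hv
  refine ⟨a, ha, ?_⟩
  obtain ⟨x, hx⟩ := hA.1
  have hwa : w ∈ cj a U := by
    rw [hwu, ← hav, ← conj_eq_comm_mul]
    exact conj_mem_cj a hu
  rw [hX] at hwX
  rw [hx, cj_cj] at hwa ⊢
  exact D.eq_of_mem hwX hwa hw1

include D in
/-- Symmetry: `V ≤ O₂(N(U))`. -/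
theorem back (hA : Adj V U) : Adj U V := by
  have hUd := D.adj_data hA
  obtain ⟨x, hx⟩ := hA.1
  refine ⟨⟨x⁻¹, by rw [hx, cj_inv_cj]⟩, fun e => hA.2.1 e.symm, ?_⟩
  have hUP := D.adj_le_pc hA
  set B : Subgroup G := pc V ⊓ centralizer (U : Set G) with hBdef
  have hBM : B ≤ normalizer (V : Set G) ⊓ normalizer (U : Set G) := by
    intro b hb
    refine ⟨qc_le V hb.1.1, ?_⟩
    obtain ⟨u, hu, hu1⟩ := (Subgroup.bot_or_exists_ne_one U).resolve_left hUd.ne_bot
    exact hUd.mem_normalizer_of_commute' hu hu1 (Subgroup.mem_centralizer_iff.1 hb.2 u hu).symm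
  have hBp : IsPGroup 2 ↥B := (qc_isPGroup V).to_le (inf_le_left.trans inf_le_left)
  classical
  obtain ⟨S0, hS0mem, hS0max⟩ := (Set.toFinite {S : Subgroup G | B ≤ S ∧
      S ≤ normalizer (V : Set G) ⊓ normalizer (U : Set G) ∧ IsPGroup 2 ↥S}).toFinset.exists_max_image
    (fun S => Nat.card S) ⟨B, (Set.Finite.mem_toFinset _).2 ⟨le_rfl, hBM, hBp⟩⟩
  simp only [Set.Finite.mem_toFinset, Set.mem_ofPred_eq] at hS0mem hS0max
  obtain ⟨hBS, hSK, hS0p⟩ := hS0mem
  have hB : ∀ b ∈ pc V, (∀ u ∈ U, b * u = u * b) → b ∈ S0 := fun b hb hbu =>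
    hBS ⟨hb, Subgroup.mem_centralizer_iff.2 fun u hu => (hbu u hu).symm⟩
  -- `O₂(N(U))` does not normalise `V`
  have hQU : ¬ qc U ≤ normalizer (V : Set G) := by
    intro hle
    have hVU : V ≤ normalizer (U : Set G) := fun v hv => (hSK (hB v (D.le_pc hv)
      fun u hu => D.adj_comm hA v hv u hu)).2
    have hS : IsPGroup 2 ↥(V ⊔ qc U) := by
      refine IsPGroup.to_sup_of_normal_right' ((qc_isPGroup V).to_le D.le_qc_self)
        (qc_isPGroup U) ?_
      intro v hv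
      rw [Subgroup.mem_normalizer_iff]
      intro q
      refine ⟨fun hq => conj_mem_qc (hVU hv) hq, fun hq => ?_⟩
      have := conj_mem_qc (inv_mem (hVU hv)) hq
      simpa [mul_assoc] using this
    have hle' : V ⊔ qc U ≤ normalizer (V : Set G) := sup_le D.le_normalizer hle
    obtain ⟨v, hv, hv1, hvc⟩ := exists_fixed hS le_sup_left D.ne_bot fun s hs a ha =>
      (Subgroup.mem_normalizer_iff.1 (hle' hs) a).1 ha
    exact hv1 (D.adj_inf hA (hUd.central_mem (hVU hv)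
      fun q hq => hvc q (Subgroup.mem_sup_right hq)) hv)
  set T := S0 ⊔ qc U with hT
  have hS0U : S0 ≤ normalizer (U : Set G) := hSK.trans inf_le_right
  have hTp : IsPGroup 2 ↥T := by
    refine IsPGroup.to_sup_of_normal_right' hS0p (qc_isPGroup U) ?_
    intro s hs
    rw [Subgroup.mem_normalizer_iff]
    intro q
    refine ⟨fun hq => conj_mem_qc (hS0U hs) hq, fun hq => ?_⟩
    have := conj_mem_qc (inv_mem (hS0U hs)) hq
    simpa [mul_assoc] using this
  have hTU : T ≤ normalizer (U : Set G) := sup_le hS0U (qc_le U)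
  haveI : Group.IsNilpotent ↥T := hTp.isNilpotent
  have hlt : S0.subgroupOf T < ⊤ := by
    refine lt_top_iff_ne_top.2 fun e => hQU ?_
    have h1 : T ≤ S0 := Subgroup.subgroupOf_eq_top.1 e
    exact (le_sup_right.trans h1).trans (hSK.trans inf_le_left)
  obtain ⟨⟨t, htT⟩, htn, htS⟩ :=
    SetLike.exists_of_lt (Group.normalizerCondition_of_isNilpotent (G := ↥T) _ hlt)
  have hts : t ∉ S0 := htS
  have htS' : ∀ s, s ∈ S0 ↔ t * s * t⁻¹ ∈ S0 := by
    intro s
    constructor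
    · intro hs
      exact (Subgroup.mem_normalizer_iff.1 htn ⟨s, Subgroup.mem_sup_left hs⟩).1 hs
    · intro hs
      have h := (Subgroup.mem_normalizer_iff.1 (inv_mem htn)
        ⟨t * s * t⁻¹, Subgroup.mem_sup_left hs⟩).1 hs
      change t⁻¹ * (t * s * t⁻¹) * t⁻¹⁻¹ ∈ S0 at h
      simpa [mul_assoc] using h
  have htV : t ∉ normalizer (V : Set G) := by
    intro htV
    set S1 := S0 ⊔ Subgroup.zpowers t with hS1
    have hS1T : S1 ≤ T := sup_le le_sup_left (Subgroup.zpowers_le.2 htT)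
    have hmem := hS0max S1 ⟨hBS.trans le_sup_left, sup_le hSK (Subgroup.zpowers_le.2
      ⟨htV, hTU htT⟩), hTp.to_le hS1T⟩
    have he : S0 = S1 := Subgroup.eq_of_le_of_card_ge le_sup_left hmem
    exact hts (he ▸ Subgroup.mem_sup_right (Subgroup.mem_zpowers t))
  have hStep := fun {s : G} (h1 : s ∈ normalizer (U : Set G)) (h2 : s ∉ normalizer (V : Set G))
    (h3 : ∀ g, g ∈ S0 ↔ s * g * s⁻¹ ∈ S0) =>
      D.step hA (hSK.trans inf_le_left) hS0p hB h1 h2 h3
  obtain ⟨a, ha, hta⟩ := hStep (hTU htT) htV htS'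
  obtain ⟨b, hb, htb⟩ := hStep (inv_mem (hTU htT)) (fun h => htV (by simpa using inv_mem h))
    (fun g => by rw [htS' (t⁻¹ * g * t⁻¹⁻¹)]; simp [mul_assoc])
  have h1 : cj t⁻¹ V ≤ qc V := by
    rw [htb]
    exact (D.adj_conj hA (qc_le V hb.1)).2.2
  have h2 := cj_mono t h1
  rw [cj_cj_inv, ← qc_cj, hta, qc_cj] at h2
  have h3 := cj_mono a⁻¹ h2
  rwa [cj_inv_cj, cj_eq_self_iff.2 (inv_mem (qc_le V ha.1))] at h3

include D in
lemma exists_swap (hA : Adj V U) {u : G} (hu : u ∈ U) (hu1 : u ≠ 1) {v : G} (hv : v ∈ V)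
    (hv1 : v ≠ 1) : ∃ h : G, cj h V = U ∧ h * v * h⁻¹ = u := by
  obtain ⟨b, hb, hbv⟩ := (D.adj_data hA).surj (D.back hA) hv hv1 hu
  obtain ⟨a, ha, hau⟩ := D.surj hA hu hu1 hv
  have hvu := D.adj_comm hA v hv u hu
  have e : a * b * v * (a * b)⁻¹ = u := by
    calc a * b * v * (a * b)⁻¹ = a * (⁅b, v⁆ * v) * a⁻¹ := by rw [← conj_eq_comm_mul]; group
      _ = (a * u * a⁻¹) * (a * v * a⁻¹) := by rw [hbv]; group
      _ = v * u * v := by rw [conj_eq_comm_mul, hau, pc_comm ha hv, mul_inv_cancel_right]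
      _ = u := by rw [hvu, mul_assoc, D.sq hv, mul_one]
  refine ⟨a * b, ?_, e⟩
  obtain ⟨x, hx⟩ := hA.1
  rw [hx]
  exact D.eq_of_mem (e ▸ conj_mem_cj (a * b) hv) (hx ▸ hu) hu1

include D in
/-- `P = Q`. -/
theorem qc_eq (hA : Adj V U) : qc V = pc V := by
  refine le_antisymm (fun q hq => ⟨hq, Subgroup.mem_centralizer_iff.2 fun v hv => ?_⟩) inf_le_left
  obtain ⟨z, hz, hz1, hzc⟩ := exists_fixed (qc_isPGroup V) D.le_qc_self D.ne_bot
    (fun s hs a ha => (Subgroup.mem_normalizer_iff.1 (qc_le V hs) a).1 ha)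
  by_cases hv1 : v = 1
  · rw [hv1, one_mul, mul_one]
  obtain ⟨u, hu, hu1⟩ := (Subgroup.bot_or_exists_ne_one U).resolve_left (D.adj_data hA).ne_bot
  obtain ⟨h1, hh1, he1⟩ := D.exists_swap hA hu hu1 hz hz1
  obtain ⟨h2, hh2, he2⟩ := D.exists_swap hA hu hu1 hv hv1
  have hm : h2⁻¹ * h1 ∈ normalizer (V : Set G) := by
    rw [← cj_eq_self_iff, ← cj_cj, hh1, ← hh2, cj_inv_cj]
  have hmz : h2⁻¹ * h1 * z * (h2⁻¹ * h1)⁻¹ = v := by
    calc h2⁻¹ * h1 * z * (h2⁻¹ * h1)⁻¹ = h2⁻¹ * (h1 * z * h1⁻¹) * h2 := by group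
      _ = v := by rw [he1, ← he2]; group
  have hq' := hzc _ (conj_mem_qc (inv_mem hm) hq)
  rw [inv_inv] at hq'
  set m := h2⁻¹ * h1
  calc v * q = m * (z * (m⁻¹ * q * m)) * m⁻¹ := by rw [← hmz]; group
    _ = m * (m⁻¹ * q * m * z) * m⁻¹ := by rw [hq']
    _ = q * v := by rw [← hmz]; group

end Data

end Cfsg.Agent.Screen.TISub
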