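import Mathlib.RingTheory.LittleWedderburn
import Mathlib.RingTheory.IntegralDomain
import Mathlib.Algebra.Ring.MinimalAxioms
import Mathlib.Algebra.Field.TransferInstance
import Mathlib.Algebra.Module.Basic

/-!
# Finite division algebras in characteristic two with the alternative laws and the right Moufang
law are fields.

Two elements generate an associative subalgebra (Artin), which is a finite domain, hence
commutative (Wedderburn); a commutative alternative algebra of characteristic two is associative.
-/

set_option autoImplicit false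

set_option linter.style.haveILetI false

namespace Cfsg.Agent.Screen.TISub

/-- A unital product on an elementary abelian 2-group without zero divisors, whose sets of left,
and of right multiplications, are closed under squares, the latter also under `R_x R_w R_x`. -/
structure AltMul (X : Type*) [AddCommGroup X] where
  m : X → X → X
  e : X
  e_ne : e ≠ 0
  char_two : ∀ a : X, a + a = 0
  addL : ∀ a b c, m (a + b) c = m a c + m b c
  addR : ∀ a b c, m a (b + c) = m a b + m a c
  eL : ∀ a, m e a = a
  eR : ∀ a, m a e = a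
  nzd : ∀ a b, m a b = 0 → a = 0 ∨ b = 0
  hL : ∀ x, ∃ z, ∀ w, m x (m x w) = m z w
  hR : ∀ x, ∃ z, ∀ y, m (m y x) x = m y z
  hM : ∀ x w, ∃ z, ∀ y, m (m (m y x) w) x = m y z

namespace AltMul

variable {X : Type*} [AddCommGroup X] (D : AltMul X)

include D in
lemma eq_of_add {a b : X} (h : a + b = 0) : a = b :=
  add_right_cancel (h.trans (D.char_two b).symm)

include D in
lemma add_self_left (a b : X) : a + (a + b) = b := by
  rw [← add_assoc, D.char_two, zero_add]

lemma zeroL (a : X) : D.m 0 a = 0 := by
  have h := D.addL 0 0 a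
  rw [add_zero] at h
  exact (left_eq_add.mp h)

lemma zeroR (a : X) : D.m a 0 = 0 := by
  have h := D.addR a 0 0
  rw [add_zero] at h
  exact (left_eq_add.mp h)

lemma lalt (x w : X) : D.m x (D.m x w) = D.m (D.m x x) w := by
  obtain ⟨z, hz⟩ := D.hL x
  have h := hz D.e
  rw [D.eR, D.eR] at h
  rw [hz w, h]

lemma ralt (y x : X) : D.m (D.m y x) x = D.m y (D.m x x) := by
  obtain ⟨z, hz⟩ := D.hR x
  have h := hz D.e
  rw [D.eL, D.eL] at h
  rw [hz y, h]

lemma moufang (y x w : X) : D.m (D.m (D.m y x) w) x = D.m y (D.m (D.m x w) x) := by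
  obtain ⟨z, hz⟩ := D.hM x w
  have h := hz D.e
  rw [D.eL, D.eL] at h
  rw [hz y, h]

/-- The associator. -/
def A (x y w : X) : X := D.m (D.m x y) w + D.m x (D.m y w)

lemma A_addL (a b y w : X) : D.A (a + b) y w = D.A a y w + D.A b y w := by
  simp only [A, D.addL]; abel

lemma A_addM (x a b w : X) : D.A x (a + b) w = D.A x a w + D.A x b w := by
  simp only [A, D.addL, D.addR]; abel

lemma A_addR (x y a b : X) : D.A x y (a + b) = D.A x y a + D.A x y b := by
  simp only [A, D.addR]; abel

lemma A_eL (a b : X) : D.A D.e a b = 0 := by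
  simp only [A, D.eL]; exact D.char_two _

lemma A_eM (a b : X) : D.A a D.e b = 0 := by
  simp only [A, D.eL, D.eR]; exact D.char_two _

lemma A_eR (a b : X) : D.A a b D.e = 0 := by
  simp only [A, D.eR]; exact D.char_two _

lemma A_ll (x w : X) : D.A x x w = 0 := by
  simp only [A, D.lalt]; exact D.char_two _

lemma A_rr (y x : X) : D.A y x x = 0 := by
  simp only [A, D.ralt]; exact D.char_two _

lemma A_sL (x y w : X) : D.A x y w = D.A y x w := by
  refine D.eq_of_add ?_
  have h := D.A_ll (x + y) w
  rw [A_addL, A_addM, A_addM, A_ll, A_ll, zero_add, add_zero] at h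
  exact h

lemma A_sR (x y w : X) : D.A x y w = D.A x w y := by
  refine D.eq_of_add ?_
  have h := D.A_rr x (y + w)
  rw [A_addM, A_addR, A_addR, A_rr, A_rr, zero_add, add_zero] at h
  exact h

lemma A_rot (x y w : X) : D.A x y w = D.A y w x := by rw [D.A_sL, D.A_sR]

lemma A_lr (x y : X) : D.A x y x = 0 := by rw [D.A_sR, D.A_ll]

/-- `[x, y, xw] = [x, y, w] x`. -/
lemma A_mul (x y w : X) : D.A x y (D.m x w) = D.m (D.A x y w) x := by
  refine D.eq_of_add ?_
  rw [D.A_rot x y (D.m x w), D.A_rot x y w]
  have key : D.A y x w + D.A y w x = 0 := by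
    rw [D.A_sR y w x, D.char_two]
  have e1 : D.A y (D.m x w) x + D.m (D.A y w x) x = D.m (D.A y x w + D.A y w x) x := by
    simp only [A, D.addL, D.moufang]
    abel
  rw [e1, key, D.zeroL]

lemma A_mul_lin (x y z w : X) :
    D.A x z (D.m y w) + D.A y z (D.m x w) = D.m (D.A x z w) y + D.m (D.A y z w) x := by
  have h := D.A_mul (x + y) z w
  simp only [D.addL, D.addR, A_addL, A_addR, A_mul] at h
  refine D.eq_of_add ?_
  have h' := sub_eq_zero.mpr h
  rw [sub_eq_add_neg] at h'
  have hneg : ∀ a : X, -a = a := fun a => neg_eq_of_add_eq_zero_left (D.char_two a)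
  simp only [hneg] at h'
  rw [← h']
  abel_nf
  simp only [two_zsmul, D.char_two, add_zero]

/-- Right-nested words in `x`, `y` of given length. -/
inductive Word (x y : X) : ℕ → X → Prop
  | one : Word x y 0 D.e
  | mul {n : ℕ} {g w : X} (hg : g = x ∨ g = y) (h : Word x y n w) : Word x y (n + 1) (D.m g w)

lemma word_assoc (x y : X) : ∀ n : ℕ, ∀ i j : ℕ, i + j ≤ n → ∀ z v : X, D.Word x y i z →
    D.Word x y j v → ∀ g : X, (g = x ∨ g = y) → D.A g z v = 0 := by
  intro n
  induction n with
  | zero =>
    intro i j hij z v hz hv g _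
    obtain ⟨rfl, rfl⟩ : i = 0 ∧ j = 0 := by omega
    cases hz
    exact D.A_eM g v
  | succ n ih =>
    intro i j hij z v hz hv g hg
    cases hz with
    | one => exact D.A_eM g v
    | @mul i' h z' hh hz' =>
      cases hv with
      | one => exact D.A_eR g _
      | @mul j' k v' hk hv' =>
        -- the cases in which the outer generator repeats
        have hstep : ∀ g' : X, (g' = x ∨ g' = y) → ∀ i₁ j₁ : ℕ, i₁ + j₁ ≤ n → ∀ z₁ v₁ : X,
            D.Word x y i₁ z₁ → D.Word x y j₁ v₁ → D.A g' (D.m g' z₁) v₁ = 0 := by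
          intro g' hg' i₁ j₁ hle z₁ v₁ h₁ h₂
          rw [D.A_sR, D.A_mul, D.A_sR, ih i₁ j₁ hle z₁ v₁ h₁ h₂ g' hg', D.zeroL]
        by_cases hgh : g = h
        · subst hgh
          exact hstep g hg i' (j' + 1) (by omega) z' _ hz' (.mul hk hv')
        by_cases hgk : g = k
        · subst hgk
          rw [D.A_sR]
          exact hstep g hg j' (i' + 1) (by omega) v' _ hv' (.mul hh hz')
        -- now `h = k` is the other generator
        have hhk : h = k := by
          rcases hg with rfl | rfl <;> rcases hh with rfl | rfl <;> rcases hk with rfl | rfl <;>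
            first | rfl | exact absurd rfl hgh | exact absurd rfl hgk
        subst hhk
        have e := D.A_mul_lin g h (D.m h z') v'
        rw [ih (i' + 1) j' (by omega) (D.m h z') v' (.mul hh hz') hv' g hg,
          ih (i' + 1) j' (by omega) (D.m h z') v' (.mul hh hz') hv' h hh,
          D.zeroL, D.zeroL, add_zero] at e
        rw [D.eq_of_add e]
        exact hstep h hh i' (j' + 1) (by omega) z' _ hz' (.mul hg hv')

/-- The additive span of the words in `x`, `y`. -/
def span (x y : X) : AddSubgroup X := AddSubgroup.closure {z | ∃ n, D.Word x y n z}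

lemma word_mul {x y : X} : ∀ {i : ℕ} {z : X}, D.Word x y i z → ∀ {j : ℕ} {v : X},
    D.Word x y j v → D.Word x y (i + j) (D.m z v) := by
  intro i z hz
  induction hz with
  | one =>
    intro j v hv
    rw [D.eL, Nat.zero_add]; exact hv
  | @mul n g w hg h ihw =>
    intro j v hv
    have e : D.m (D.m g w) v = D.m g (D.m w v) :=
      D.eq_of_add (D.word_assoc x y (n + j) n j le_rfl w v h hv g hg)
    rw [e, Nat.succ_add]
    exact .mul hg (ihw hv)

lemma word_assoc₃ {x y : X} : ∀ {i : ℕ} {z : X}, D.Word x y i z → ∀ {j k : ℕ} {v u : X},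
    D.Word x y j v → D.Word x y k u → D.A z v u = 0 := by
  intro i z hz
  induction hz with
  | one => intro j k v u _ _; exact D.A_eL v u
  | @mul n g w hg h ihw =>
    intro j k v u hv hu
    have e1 : D.m (D.m g w) v = D.m g (D.m w v) :=
      D.eq_of_add (D.word_assoc x y (n + j) n j le_rfl w v h hv g hg)
    have e2 : D.m (D.m g (D.m w v)) u = D.m g (D.m (D.m w v) u) :=
      D.eq_of_add (D.word_assoc x y (n + j + k) (n + j) k le_rfl _ u (D.word_mul h hv) hu g hg)
    have e3 : D.m (D.m g w) (D.m v u) = D.m g (D.m w (D.m v u)) :=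
      D.eq_of_add (D.word_assoc x y (n + (j + k)) n (j + k) le_rfl w _ h (D.word_mul hv hu) g hg)
    have e4 : D.m (D.m w v) u = D.m w (D.m v u) := D.eq_of_add (ihw hv hu)
    rw [A, e1, e2, e3, e4]
    exact D.char_two _

lemma span_mul {x y a b : X} (ha : a ∈ D.span x y) (hb : b ∈ D.span x y) :
    D.m a b ∈ D.span x y := by
  induction ha using AddSubgroup.closure_induction with
  | mem a ha =>
    induction hb using AddSubgroup.closure_induction with
    | mem b hb => exact AddSubgroup.subset_closure ⟨_, D.word_mul ha.choose_spec hb.choose_spec⟩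
    | zero => rw [D.zeroR]; exact zero_mem _
    | add u v _ _ hu hv => rw [D.addR]; exact add_mem hu hv
    | neg u _ hu => rw [neg_eq_of_add_eq_zero_left (D.char_two u)]; exact hu
  | zero => rw [D.zeroL]; exact zero_mem _
  | add u v _ _ hu hv => rw [D.addL]; exact add_mem hu hv
  | neg u _ hu => rw [neg_eq_of_add_eq_zero_left (D.char_two u)]; exact hu

lemma span_assoc {x y a b c : X} (ha : a ∈ D.span x y) (hb : b ∈ D.span x y)
    (hc : c ∈ D.span x y) : D.A a b c = 0 := by
  have hn : ∀ u : X, -u = u := fun u => neg_eq_of_add_eq_zero_left (D.char_two u)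
  induction ha using AddSubgroup.closure_induction with
  | mem a ha =>
    induction hb using AddSubgroup.closure_induction with
    | mem b hb =>
      induction hc using AddSubgroup.closure_induction with
      | mem c hc => exact D.word_assoc₃ ha.choose_spec hb.choose_spec hc.choose_spec
      | zero => simp [A, D.zeroR]
      | add u v _ _ hu hv => rw [A_addR, hu, hv, add_zero]
      | neg u _ hu => rw [hn]; exact hu
    | zero => simp [A, D.zeroR, D.zeroL]
    | add u v _ _ hu hv => rw [A_addM, hu, hv, add_zero]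
    | neg u _ hu => rw [hn]; exact hu
  | zero => simp [A, D.zeroL]
  | add u v _ _ hu hv => rw [A_addL, hu, hv, add_zero]
  | neg u _ hu => rw [hn]; exact hu

variable [Finite X]

theorem mul_comm' (x y : X) : D.m x y = D.m y x := by
  let R := ↥(D.span x y)
  have he : D.e ∈ D.span x y := AddSubgroup.subset_closure ⟨0, .one⟩
  have hx : x ∈ D.span x y :=
    AddSubgroup.subset_closure ⟨1, by simpa [D.eR] using Word.mul (D := D) (Or.inl rfl) .one⟩
  have hy : y ∈ D.span x y :=
    AddSubgroup.subset_closure ⟨1, by simpa [D.eR] using Word.mul (D := D) (Or.inr rfl) .one⟩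
  letI : Mul R := ⟨fun a b => ⟨D.m a b, D.span_mul a.2 b.2⟩⟩
  letI : One R := ⟨⟨D.e, he⟩⟩
  letI ring : Ring R :=
    { (inferInstance : AddCommGroup R), (inferInstance : Mul R), (inferInstance : One R) with
      mul_assoc := fun a b c => Subtype.ext (D.eq_of_add (D.span_assoc a.2 b.2 c.2))
      one_mul := fun a => Subtype.ext (D.eL a)
      mul_one := fun a => Subtype.ext (D.eR a)
      left_distrib := fun a b c => Subtype.ext (D.addR a b c)
      right_distrib := fun a b c => Subtype.ext (D.addL a b c)
      zero_mul := fun a => Subtype.ext (D.zeroL a)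
      mul_zero := fun a => Subtype.ext (D.zeroR a) }
  haveI : Nontrivial R := ⟨⟨0, 1, fun h => D.e_ne (congrArg Subtype.val h).symm⟩⟩
  haveI : NoZeroDivisors R := ⟨fun {a b} h => by
    rcases D.nzd a b (congrArg Subtype.val h) with h' | h'
    · exact Or.inl (Subtype.ext h')
    · exact Or.inr (Subtype.ext h')⟩
  haveI : IsDomain R := NoZeroDivisors.to_isDomain R
  exact congrArg Subtype.val ((Finite.isDomain_to_isField R).mul_comm ⟨x, hx⟩ ⟨y, hy⟩)

theorem mul_assoc' (a b c : X) : D.m (D.m a b) c = D.m a (D.m b c) := by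
  have key : ∀ u v w : X, D.m u (D.m v w) = D.m v (D.m u w) := by
    intro u v w
    have h := D.A_sL u v w
    simp only [A, D.mul_comm' v u] at h
    exact add_left_cancel h
  rw [D.mul_comm' (D.m a b) c, key, D.mul_comm' c b]

/-- Hence the product is that of a field. -/
theorem exists_field : ∃ (F : Type) (_ : Field F) (_ : Fintype F) (f : F ≃+ X),
    f 1 = D.e ∧ ∀ a b, f (a * b) = D.m (f a) (f b) := by
  letI : Mul X := ⟨D.m⟩
  letI : One X := ⟨D.e⟩
  letI cr : CommRing X :=
    { (inferInstance : AddCommGroup X), (inferInstance : Mul X), (inferInstance : One X) with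
      mul_assoc := D.mul_assoc'
      mul_comm := D.mul_comm'
      one_mul := D.eL
      mul_one := D.eR
      left_distrib := D.addR
      right_distrib := D.addL
      zero_mul := D.zeroL
      mul_zero := D.zeroR }
  haveI : Nontrivial X := ⟨⟨0, D.e, D.e_ne.symm⟩⟩
  haveI : NoZeroDivisors X := ⟨fun {a b} h => D.nzd a b h⟩
  haveI : IsDomain X := NoZeroDivisors.to_isDomain X
  letI : Field X := (Finite.isField_of_domain X).toField
  let e : {i : Fin (Nat.card X) // True} ≃ X :=
    (Equiv.subtypeUnivEquiv (fun _ => trivial)).trans (Finite.equivFin X).symm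
  letI : Field {i : Fin (Nat.card X) // True} := e.field
  exact ⟨{i : Fin (Nat.card X) // True}, inferInstance, Fintype.ofFinite _,
    e.ringEquiv.toAddEquiv, map_one e.ringEquiv, fun a b => map_mul e.ringEquiv a b⟩

end AltMul

end Cfsg.Agent.Screen.TISub
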