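import Cfsg.Agent.Core.Cores
import Cfsg.Agent.OddLocal.NilBasics
import Mathlib.GroupTheory.Nilpotent
import Cfsg.Prelude.Def_Transfer
import Mathlib.GroupTheory.Sylow
import Mathlib.Data.Fintype.EquivFin

/-!
# A TI elementary abelian 2-subgroup `V`, maximal abelian normal in a 2-constrained normaliser,
with a conjugate `U ≠ V` inside `O₂(N(V))`.

`Q = O₂(N(V))`, `P = C_Q(V)`: `P` has commutators and squares in `V`, every element of `P` outside
`C(U)` induces a bijection `U → V`, and `V ≤ O₂(N(U))`.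
-/

set_option autoImplicit false
set_option linter.style.haveILetI false
set_option linter.unusedSectionVars false
set_option linter.unusedVariables false

namespace Cfsg.Agent.Screen.TISub

open Subgroup
open scoped commutatorElement

variable {G : Type*} [Group G]

/-- Conjugate subgroup. -/
def cj (x : G) (H : Subgroup G) : Subgroup G := H.map (MulAut.conj x).toMonoidHom

lemma mem_cj {x g : G} {H : Subgroup G} : g ∈ cj x H ↔ x⁻¹ * g * x ∈ H := by
  constructor
  · rintro ⟨h, hh, rfl⟩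
    simpa [mul_assoc] using hh
  · intro h
    exact ⟨_, h, by simp [mul_assoc]⟩

lemma conj_mem_cj (x : G) {h : G} {H : Subgroup G} (hh : h ∈ H) : x * h * x⁻¹ ∈ cj x H :=
  mem_cj.2 (by simpa [mul_assoc] using hh)

lemma cj_cj (x y : G) (H : Subgroup G) : cj x (cj y H) = cj (x * y) H := by
  ext g; simp only [mem_cj, mul_inv_rev, mul_assoc]

lemma cj_one (H : Subgroup G) : cj 1 H = H := by ext g; simp [mem_cj]

lemma cj_inv_cj (x : G) (H : Subgroup G) : cj x⁻¹ (cj x H) = H := by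
  rw [cj_cj, inv_mul_cancel, cj_one]

lemma cj_cj_inv (x : G) (H : Subgroup G) : cj x (cj x⁻¹ H) = H := by
  rw [cj_cj, mul_inv_cancel, cj_one]

lemma cj_mono (x : G) {H K : Subgroup G} (h : H ≤ K) : cj x H ≤ cj x K := Subgroup.map_mono h

lemma card_cj (x : G) (H : Subgroup G) : Nat.card (cj x H) = Nat.card H :=
  Subgroup.card_map_of_injective (MulAut.conj x).injective

lemma cj_eq_self_iff {x : G} {H : Subgroup G} : cj x H = H ↔ x ∈ normalizer (H : Set G) := by
  rw [Subgroup.mem_normalizer_iff]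
  constructor
  · intro e h
    constructor
    · intro hh; rw [← e]; exact conj_mem_cj x hh
    · intro hh; rw [← e, mem_cj] at hh; simpa [mul_assoc] using hh
  · intro h; ext g; rw [mem_cj, h]; simp [mul_assoc]

lemma mem_normalizer_cj {x m : G} {H : Subgroup G} :
    m ∈ normalizer (cj x H : Set G) ↔ x⁻¹ * m * x ∈ normalizer (H : Set G) := by
  rw [← cj_eq_self_iff, ← cj_eq_self_iff, cj_cj]
  constructor
  · intro h
    rw [mul_assoc, ← cj_cj, h, cj_inv_cj]
  · intro h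
    conv_rhs => rw [← h]
    rw [cj_cj, ← mul_assoc, ← mul_assoc, mul_inv_cancel, one_mul]

/-- `O₂(N(V))` as a subgroup of `G`. -/
def qc (V : Subgroup G) : Subgroup G :=
  (Cfsg.pCore 2 ↥(normalizer (V : Set G))).map (normalizer (V : Set G)).subtype

/-- `C_{O₂(N(V))}(V)`. -/
def pc (V : Subgroup G) : Subgroup G := qc V ⊓ centralizer (V : Set G)

lemma qc_le (V : Subgroup G) : qc V ≤ normalizer (V : Set G) := Subgroup.map_subtype_le _

lemma qc_isPGroup (V : Subgroup G) : IsPGroup 2 ↥(qc V) :=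
  (Core.isPGroup_pCore 2 _).map _

lemma le_qc {V K : Subgroup G} (hK : K ≤ normalizer (V : Set G))
    (hn : ∀ m ∈ normalizer (V : Set G), ∀ k ∈ K, m * k * m⁻¹ ∈ K) (hp : IsPGroup 2 ↥K) :
    K ≤ qc V := by
  intro k hk
  have hN : (K.subgroupOf (normalizer (V : Set G))).Normal := ⟨fun a ha m => hn _ m.2 _ ha⟩
  exact ⟨⟨k, hK hk⟩, Core.le_pCore hN (hp.of_equiv (subgroupOfEquivOfLe hK).symm) hk, rfl⟩

lemma conj_mem_qc {V : Subgroup G} {m q : G} (hm : m ∈ normalizer (V : Set G)) (hq : q ∈ qc V) :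
    m * q * m⁻¹ ∈ qc V := by
  obtain ⟨a, ha, rfl⟩ := hq
  exact ⟨⟨m, hm⟩ * a * ⟨m, hm⟩⁻¹, (Cfsg.pCore_normal 2 _).conj_mem a ha _, rfl⟩

lemma cj_qc_le (x : G) (V : Subgroup G) : cj x (qc V) ≤ qc (cj x V) := by
  refine le_qc ?_ ?_ ((qc_isPGroup V).map _)
  · intro g hg
    exact mem_normalizer_cj.2 (qc_le V (mem_cj.1 hg))
  · intro m hm k hk
    rw [mem_cj] at hk ⊢
    have h := conj_mem_qc (mem_normalizer_cj.1 hm) hk
    simpa [mul_assoc] using h

lemma qc_cj (x : G) (V : Subgroup G) : qc (cj x V) = cj x (qc V) := by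
  refine le_antisymm ?_ (cj_qc_le x V)
  have h := cj_mono x (cj_qc_le x⁻¹ (cj x V))
  rwa [cj_inv_cj, cj_cj_inv] at h

/-- The hypotheses on `V`. -/
structure Data (V : Subgroup G) : Prop where
  elem : Cfsg.IsElementaryAbelian 2 V
  ne_bot : V ≠ ⊥
  cq : ∀ m ∈ normalizer (V : Set G), (∀ q ∈ qc V, q * m = m * q) → m ∈ qc V
  max : ∀ A : Subgroup G, V ≤ A → A ≤ normalizer (V : Set G) →
    (∀ a ∈ A, ∀ b ∈ A, a * b = b * a) →
    (∀ m ∈ normalizer (V : Set G), ∀ a ∈ A, m * a * m⁻¹ ∈ A) → A = V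
  ti : ∀ x : G, cj x V = V ∨ cj x V ⊓ V = ⊥

/-- `U` is a conjugate of `V` other than `V` inside `O₂(N(V))`. -/
def Adj (V U : Subgroup G) : Prop := (∃ x : G, U = cj x V) ∧ U ≠ V ∧ U ≤ qc V

/-- Elements of `P` modulo `V` centralised by `Q`. -/
def yc (V : Subgroup G) : Set G := {y | y ∈ pc V ∧ ∀ q ∈ qc V, ⁅y, q⁆ ∈ V}

namespace Data

variable {V U : Subgroup G} (D : Data V)

include D in
lemma sq {v : G} (hv : v ∈ V) : v * v = 1 := by
  have := D.elem.2 v hv
  rwa [pow_two] at this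

include D in
lemma inv_eq {v : G} (hv : v ∈ V) : v⁻¹ = v := inv_eq_of_mul_eq_one_left (D.sq hv)

include D in
lemma comm {v w : G} (hv : v ∈ V) (hw : w ∈ V) : v * w = w * v := by
  haveI := D.elem.1
  exact congrArg Subtype.val (mul_comm' (⟨v, hv⟩ : V) ⟨w, hw⟩)

include D in
lemma conj (x : G) : Data (cj x V) := by
  refine ⟨⟨⟨⟨fun a b => Subtype.ext ?_⟩⟩, fun a ha => ?_⟩, ?_, ?_, ?_, ?_⟩
  · obtain ⟨v, hv, hva⟩ := a.2
    obtain ⟨w, hw, hwb⟩ := b.2
    show (a : G) * b = b * a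
    rw [← hva, ← hwb, ← map_mul, ← map_mul, D.comm hv hw]
  · obtain ⟨v, hv, rfl⟩ := ha
    rw [← map_pow, D.elem.2 v hv, map_one]
  · intro e
    apply D.ne_bot
    rw [← cj_inv_cj x V, e]
    exact Subgroup.map_bot _
  · intro m hm hc
    rw [qc_cj, mem_cj]
    refine D.cq _ (mem_normalizer_cj.1 hm) fun q hq => ?_
    have h := hc (x * q * x⁻¹) (by rw [qc_cj]; exact conj_mem_cj x hq)
    calc q * (x⁻¹ * m * x) = x⁻¹ * ((x * q * x⁻¹) * m) * x := by group
      _ = x⁻¹ * (m * (x * q * x⁻¹)) * x := by rw [h]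
      _ = (x⁻¹ * m * x) * q := by group
  · intro A hVA hA hab hn
    have hA' : cj x⁻¹ A = V := by
      refine D.max _ ?_ ?_ ?_ ?_
      · have h := cj_mono x⁻¹ hVA
        rwa [cj_inv_cj] at h
      · intro g hg
        have h := mem_normalizer_cj.1 (hA (mem_cj.1 hg))
        simpa [mul_assoc] using h
      · intro a ha b hb
        rw [mem_cj] at ha hb
        have h := hab _ ha _ hb
        simp only [inv_inv] at h
        calc a * b = x⁻¹ * ((x * a * x⁻¹) * (x * b * x⁻¹)) * x := by group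
          _ = x⁻¹ * ((x * b * x⁻¹) * (x * a * x⁻¹)) * x := by rw [h]
          _ = b * a := by group
      · intro m hm a ha
        rw [mem_cj] at ha ⊢
        have hm' : x * m * x⁻¹ ∈ normalizer (cj x V : Set G) :=
          mem_normalizer_cj.2 (by simpa [mul_assoc] using hm)
        have h := hn _ hm' _ ha
        simpa [mul_assoc] using h
    rw [← hA', cj_cj_inv]
  · intro y
    rw [cj_cj]
    rcases D.ti (x⁻¹ * y * x) with h | h
    · left
      conv_rhs => rw [← h]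
      rw [cj_cj]; congr 1; group
    · right
      rw [eq_bot_iff]
      rintro g ⟨h1, h2⟩
      have : x⁻¹ * g * x ∈ cj (x⁻¹ * y * x) V ⊓ V :=
        ⟨mem_cj.2 (by have h1' := mem_cj.1 h1; simpa [mul_assoc] using h1'), mem_cj.1 h2⟩
      rw [h, Subgroup.mem_bot] at this
      rw [Subgroup.mem_bot]
      calc g = x * (x⁻¹ * g * x) * x⁻¹ := by group
        _ = 1 := by rw [this]; group

include D in
lemma eq_of_mem {a b w : G} (ha : w ∈ cj a V) (hb : w ∈ cj b V) (hw : w ≠ 1) :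
    cj a V = cj b V := by
  rcases (D.conj b).ti (a * b⁻¹) with h | h
  · rwa [cj_cj, mul_assoc, inv_mul_cancel, mul_one] at h
  · rw [cj_cj, mul_assoc, inv_mul_cancel, mul_one] at h
    exact absurd (Subgroup.mem_bot.1 (h ▸ Subgroup.mem_inf.2 ⟨ha, hb⟩)) hw

include D in
lemma eq_of_mem' {w : G} (hU : ∃ x, U = cj x V) (h1 : w ∈ U) (h2 : w ∈ V) (hw : w ≠ 1) :
    U = V := by
  obtain ⟨x, rfl⟩ := hU
  have := D.eq_of_mem h1 (b := 1) (by rwa [cj_one]) hw
  rwa [cj_one] at this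

include D in
lemma mem_normalizer_of_commute {x m w : G} (hw : w ∈ cj x V) (hw1 : w ≠ 1)
    (hc : m * w = w * m) : m ∈ normalizer (cj x V : Set G) := by
  rw [← cj_eq_self_iff, cj_cj]
  refine D.eq_of_mem ?_ hw hw1
  rw [← cj_cj, mem_cj]
  rwa [mul_assoc, ← hc, inv_mul_cancel_left]

include D in
lemma mem_normalizer_of_commute' {m w : G} (hw : w ∈ V) (hw1 : w ≠ 1)
    (hc : m * w = w * m) : m ∈ normalizer (V : Set G) := by
  have := D.mem_normalizer_of_commute (x := 1) (by rwa [cj_one]) hw1 hc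
  rwa [cj_one] at this

variable [Finite G]

include D in
/-- A conjugate normalising `V` centralises it. -/
lemma comm_of_normalizes (hU : ∃ x, U = cj x V) (hne : U ≠ V)
    (hn : U ≤ normalizer (V : Set G)) {v u : G} (hv : v ∈ V) (hu : u ∈ U) : v * u = u * v := by
  obtain ⟨x, rfl⟩ := hU
  have hcommN : ∀ a ∈ V, a ∈ normalizer (cj x V : Set G) → ∀ b ∈ cj x V, a * b = b * a := by
    intro a ha haN b hb
    have h1 : ⁅a, b⁆ ∈ V := by
      rw [commutatorElement_def, mul_assoc, mul_assoc, ← mul_assoc b]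
      exact mul_mem ha ((Subgroup.mem_normalizer_iff.1 (hn hb) _).1 (inv_mem ha))
    have h2 : ⁅a, b⁆ ∈ cj x V := by
      rw [commutatorElement_def]
      exact mul_mem ((Subgroup.mem_normalizer_iff.1 haN _).1 hb) (inv_mem hb)
    by_contra hab
    exact hne (D.eq_of_mem' ⟨x, rfl⟩ h2 h1 fun e => hab (commutatorElement_eq_one_iff_mul_comm.1 e))
  by_cases hvN : v ∈ normalizer (cj x V : Set G)
  · exact hcommN v hv hvN u hu
  exfalso
  let S := {a : V // (a : G) ∈ normalizer (cj x V : Set G)}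
  have hφ : ∀ b : cj x V, v * ((b : G) * v * (b : G)⁻¹) ∈ V ∧
      v * ((b : G) * v * (b : G)⁻¹) ∈ normalizer (cj x V : Set G) := by
    intro b
    have hbv : (b : G) * v * (b : G)⁻¹ ∈ V := (Subgroup.mem_normalizer_iff.1 (hn b.2) _).1 hv
    refine ⟨mul_mem hv hbv, ?_⟩
    by_cases hb1 : (b : G) = 1
    · rw [hb1]; simp [D.sq hv]
    refine D.mem_normalizer_of_commute b.2 hb1 ?_
    have hbb : (b : G) * b = 1 := (D.conj x).sq b.2
    have hbi : (b : G)⁻¹ = b := (D.conj x).inv_eq b.2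
    have hc := D.comm hv hbv
    calc v * ((b : G) * v * (b : G)⁻¹) * b = v * b * v := by group
      _ = b * ((b : G)⁻¹ * v * b) * v := by group
      _ = b * ((b : G) * v * (b : G)⁻¹ * v) := by rw [hbi]; group
      _ = b * (v * ((b : G) * v * (b : G)⁻¹)) := by rw [hc]
  let φ : cj x V → S := fun b => ⟨⟨_, (hφ b).1⟩, (hφ b).2⟩
  have hφi : Function.Injective φ := by
    intro a b hab
    by_contra hne'
    apply hvN
    have e : (a : G) * v * (a : G)⁻¹ = (b : G) * v * (b : G)⁻¹ :=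
      mul_left_cancel (congrArg (fun s : S => ((s : V) : G)) hab)
    refine D.mem_normalizer_of_commute (w := (b : G)⁻¹ * a) (mul_mem (inv_mem b.2) a.2) ?_ ?_
    · intro h
      exact hne' (Subtype.ext (inv_mul_eq_one.1 h).symm)
    · calc v * ((b : G)⁻¹ * a) = (b : G)⁻¹ * ((b : G) * v * (b : G)⁻¹) * a := by group
        _ = (b : G)⁻¹ * a * v := by rw [← e]; group
  have h1 : Nat.card (cj x V) ≤ Nat.card S := Nat.card_le_card_of_injective φ hφi
  have h2 : Nat.card S < Nat.card V := by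
    refine lt_of_le_of_ne (Nat.card_le_card_of_injective _ Subtype.val_injective) fun e => hvN ?_
    have hb := (Nat.bijective_iff_injective_and_card (fun a : S => (a : V))).2
      ⟨Subtype.val_injective, e⟩
    obtain ⟨⟨a, ha⟩, rfl⟩ := hb.2 ⟨v, hv⟩
    exact ha
  rw [card_cj] at h1
  omega

omit [Finite G] in
include D in
lemma le_normalizer : V ≤ normalizer (V : Set G) := Subgroup.le_normalizer

omit [Finite G] in
include D in
lemma le_qc_self : V ≤ qc V :=
  le_qc D.le_normalizer (fun m hm v hv => (Subgroup.mem_normalizer_iff.1 hm v).1 hv)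
    fun v => ⟨1, Subtype.ext (by simpa using D.elem.2 v v.2)⟩

omit [Finite G] in
include D in
lemma le_pc : V ≤ pc V := fun v hv =>
  ⟨D.le_qc_self hv, Subgroup.mem_centralizer_iff.2 fun w hw => D.comm hw hv⟩

omit [Finite G] in
lemma pc_comm {a v : G} (ha : a ∈ pc V) (hv : v ∈ V) : a * v = v * a :=
  (Subgroup.mem_centralizer_iff.1 ha.2 v hv).symm

omit [Finite G] in
lemma conj_mem_pc {m a : G} (hm : m ∈ normalizer (V : Set G)) (ha : a ∈ pc V) :
    m * a * m⁻¹ ∈ pc V := by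
  refine ⟨conj_mem_qc hm ha.1, Subgroup.mem_centralizer_iff.2 fun w hw => ?_⟩
  have hw' : m⁻¹ * w * m ∈ V := by
    have := (Subgroup.mem_normalizer_iff.1 (inv_mem hm) w).1 hw
    rwa [inv_inv] at this
  calc w * (m * a * m⁻¹) = m * ((m⁻¹ * w * m) * a) * m⁻¹ := by group
    _ = m * (a * (m⁻¹ * w * m)) * m⁻¹ := by rw [pc_comm ha hw']
    _ = m * a * m⁻¹ * w := by group

include D in
/-- A normal subgroup of `N(V)` between `V` and `P` has centre `V`. -/
lemma center_eq {N : Subgroup G} (hVN : V ≤ N) (hNP : N ≤ pc V)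
    (hn : ∀ m ∈ normalizer (V : Set G), ∀ a ∈ N, m * a * m⁻¹ ∈ N) {c : G} (hc : c ∈ N)
    (hcN : ∀ a ∈ N, a * c = c * a) : c ∈ V := by
  have h : N ⊓ centralizer (N : Set G) = V := by
    refine D.max _ (fun v hv => ⟨hVN hv, Subgroup.mem_centralizer_iff.2 fun a ha =>
      pc_comm (hNP ha) hv⟩) (inf_le_left.trans (hNP.trans (inf_le_left.trans (qc_le V))))
      (fun a ha b hb => Subgroup.mem_centralizer_iff.1 hb.2 a ha.1) fun m hm a ha => ?_
    refine ⟨hn m hm a ha.1, Subgroup.mem_centralizer_iff.2 fun b hb => ?_⟩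
    have hb' : m⁻¹ * b * m ∈ N := by
      have := hn m⁻¹ (inv_mem hm) b hb
      rwa [inv_inv] at this
    calc b * (m * a * m⁻¹) = m * ((m⁻¹ * b * m) * a) * m⁻¹ := by group
      _ = m * (a * (m⁻¹ * b * m)) * m⁻¹ := by rw [Subgroup.mem_centralizer_iff.1 ha.2 _ hb']
      _ = m * a * m⁻¹ * b := by group
  rw [← h]
  exact ⟨hc, Subgroup.mem_centralizer_iff.2 hcN⟩

include D in
/-- A normal subgroup strictly above `V` meets `yc V` outside `V`. -/
lemma exists_yc {N : Subgroup G} (hNP : N ≤ pc V)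
    (hn : ∀ m ∈ normalizer (V : Set G), ∀ a ∈ N, m * a * m⁻¹ ∈ N) (hgt : ¬ N ≤ V) :
    ∃ y ∈ N, y ∉ V ∧ y ∈ yc V := by
  set V' := V.subgroupOf (qc V) with hV'
  haveI : V'.Normal :=
    ⟨fun a ha q => (Subgroup.mem_normalizer_iff.1 (qc_le V q.2) _).1 ha⟩
  set N' := (N.subgroupOf (qc V)).map (QuotientGroup.mk' V') with hN'
  haveI : N'.Normal := by
    refine Subgroup.Normal.map ⟨fun a ha q => ?_⟩ _ (QuotientGroup.mk'_surjective _)
    exact hn _ (qc_le V q.2) _ ha
  haveI : Group.IsNilpotent (↥(qc V) ⧸ V') := ((qc_isPGroup V).to_quotient V').isNilpotent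
  have hne : N' ≠ ⊥ := by
    intro e
    apply hgt
    intro a ha
    have : QuotientGroup.mk' V' ⟨a, (hNP ha).1⟩ ∈ N' := Subgroup.mem_map_of_mem _ ha
    rw [e, Subgroup.mem_bot] at this
    exact (QuotientGroup.eq_one_iff (N := V') _).1 this
  obtain ⟨z, hzN, hz1, hzc⟩ := OddLocal.exists_ne_one_mem_center_of_normal N' hne
  obtain ⟨y, hy, rfl⟩ := hzN
  refine ⟨y, hy, fun h => hz1 ((QuotientGroup.eq_one_iff (N := V') _).2 h), hNP hy, fun q hq => ?_⟩
  have h := Subgroup.mem_center_iff.1 hzc (QuotientGroup.mk' V' ⟨q, hq⟩)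
  have h1 : QuotientGroup.mk' V' ⁅y, (⟨q, hq⟩ : qc V)⁆ = 1 := by
    rw [map_commutatorElement]
    exact commutatorElement_eq_one_iff_mul_comm.2 h.symm
  exact (QuotientGroup.eq_one_iff (N := V') _).1 h1

include D in
/-- `C_P(Y) = V`. -/
lemma cpy {t : G} (ht : t ∈ pc V) (htY : ∀ y ∈ yc V, t * y = y * t) : t ∈ V := by
  set T := pc V ⊓ centralizer (yc V) with hT
  have hyn : ∀ m ∈ normalizer (V : Set G), ∀ y ∈ yc V, m * y * m⁻¹ ∈ yc V := by
    intro m hm y hy
    refine ⟨conj_mem_pc hm hy.1, fun q hq => ?_⟩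
    have hq' : m⁻¹ * q * m ∈ qc V := by
      have := conj_mem_qc (inv_mem hm) hq
      rwa [inv_inv] at this
    have := (Subgroup.mem_normalizer_iff.1 hm _).1 (hy.2 _ hq')
    have e : m * ⁅y, m⁻¹ * q * m⁆ * m⁻¹ = ⁅m * y * m⁻¹, q⁆ := by
      simp only [commutatorElement_def]; group
    rwa [e] at this
  have hTn : ∀ m ∈ normalizer (V : Set G), ∀ a ∈ T, m * a * m⁻¹ ∈ T := by
    intro m hm a ha
    refine ⟨conj_mem_pc hm ha.1, Subgroup.mem_centralizer_iff.2 fun y hy => ?_⟩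
    have hy' : m⁻¹ * y * m ∈ yc V := by
      have := hyn m⁻¹ (inv_mem hm) y hy
      rwa [inv_inv] at this
    calc y * (m * a * m⁻¹) = m * ((m⁻¹ * y * m) * a) * m⁻¹ := by group
      _ = m * (a * (m⁻¹ * y * m)) * m⁻¹ := by rw [Subgroup.mem_centralizer_iff.1 ha.2 _ hy']
      _ = m * a * m⁻¹ * y := by group
  by_contra htV
  obtain ⟨y, hyT, hyV, hyY⟩ := D.exists_yc (N := T) inf_le_left hTn
    (fun h => htV (h ⟨ht, Subgroup.mem_centralizer_iff.2 fun y hy => (htY y hy).symm⟩))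
  -- `Y` as a subgroup
  let Y : Subgroup G :=
    { carrier := yc V
      mul_mem' := by
        intro a b ha hb
        refine ⟨mul_mem ha.1 hb.1, fun q hq => ?_⟩
        have e : ⁅a * b, q⁆ = a * ⁅b, q⁆ * a⁻¹ * ⁅a, q⁆ := by
          simp only [commutatorElement_def]; group
        rw [e, pc_comm ha.1 (hb.2 q hq), mul_inv_cancel_right]
        exact mul_mem (hb.2 q hq) (ha.2 q hq)
      one_mem' := ⟨one_mem _, fun q _ => by simp⟩
      inv_mem' := by
        intro a ha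
        refine ⟨inv_mem ha.1, fun q hq => ?_⟩
        have e : ⁅a⁻¹, q⁆ = a⁻¹ * ⁅a, q⁆⁻¹ * a := by simp only [commutatorElement_def]; group
        rw [e, pc_comm (inv_mem ha.1) (inv_mem (ha.2 q hq)), inv_mul_cancel_right]
        exact inv_mem (ha.2 q hq) }
  have hVY : V ≤ Y := fun v hv => ⟨D.le_pc hv, fun q hq => by
    rw [commutatorElement_def, mul_assoc, mul_assoc, ← mul_assoc q]
    exact mul_mem hv ((Subgroup.mem_normalizer_iff.1 (qc_le V hq) _).1 (inv_mem hv))⟩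
  exact hyV (D.center_eq hVY (fun a ha => ha.1) hyn hyY fun a ha =>
    Subgroup.mem_centralizer_iff.1 hyT.2 a ha)

include D in
lemma comm_mem {a b : G} (ha : a ∈ pc V) (hb : b ∈ pc V) : ⁅a, b⁆ ∈ V := by
  refine D.cpy ?_ fun y hy => ?_
  · rw [commutatorElement_def]
    exact mul_mem (mul_mem (mul_mem ha hb) (inv_mem ha)) (inv_mem hb)
  -- each element of `P` multiplies `y` by an element of `V`, central in `P`
  have key : ∀ p ∈ pc V, ∃ v ∈ V, p * y * p⁻¹ = v * y := fun p hp =>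
    ⟨⁅y, p⁆⁻¹, inv_mem (hy.2 p hp.1), by simp only [commutatorElement_def]; group⟩
  obtain ⟨v, hv, hva⟩ := key a⁻¹ (inv_mem ha)
  obtain ⟨w, hw, hwb⟩ := key b⁻¹ (inv_mem hb)
  rw [inv_inv] at hva hwb
  have hvb : b⁻¹ * v = v * b⁻¹ := pc_comm (inv_mem hb) hv
  have hwa : a⁻¹ * w = w * a⁻¹ := pc_comm (inv_mem ha) hw
  have e : (a⁻¹ * b⁻¹) * y * (b * a) = (b⁻¹ * a⁻¹) * y * (a * b) := by
    calc (a⁻¹ * b⁻¹) * y * (b * a) = a⁻¹ * (b⁻¹ * y * b) * a := by group
      _ = (a⁻¹ * w) * y * a := by rw [hwb]; group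
      _ = w * (a⁻¹ * y * a) := by rw [hwa]; group
      _ = w * (v * y) := by rw [hva]
      _ = v * (w * y) := by rw [← mul_assoc, D.comm hw hv, mul_assoc]
      _ = v * (b⁻¹ * y * b) := by rw [hwb]
      _ = (b⁻¹ * v) * y * b := by rw [hvb]; group
      _ = b⁻¹ * (a⁻¹ * y * a) * b := by rw [hva]; group
      _ = (b⁻¹ * a⁻¹) * y * (a * b) := by group
  calc ⁅a, b⁆ * y = (a * b) * ((a⁻¹ * b⁻¹) * y * (b * a)) * (b * a)⁻¹ := by
        simp only [commutatorElement_def]; group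
    _ = (a * b) * ((b⁻¹ * a⁻¹) * y * (a * b)) * (b * a)⁻¹ := by rw [e]
    _ = y * ⁅a, b⁆ := by simp only [commutatorElement_def]; group

include D in
lemma sq_mem {a : G} (ha : a ∈ pc V) : a * a ∈ V := by
  refine D.cpy (mul_mem ha ha) fun y hy => ?_
  have hv : ⁅a, y⁆ ∈ V := by
    have := inv_mem (hy.2 a ha.1)
    rwa [commutatorElement_inv] at this
  calc a * a * y = a * (⁅a, y⁆ * y * a) := by simp only [commutatorElement_def]; group
    _ = (a * ⁅a, y⁆) * (y * a) := by group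
    _ = ⁅a, y⁆ * (a * y) * a := by rw [pc_comm ha hv]; group
    _ = ⁅a, y⁆ * ⁅a, y⁆ * (y * (a * a)) := by simp only [commutatorElement_def]; group
    _ = y * (a * a) := by rw [D.sq hv, one_mul]

include D in
lemma comm_symm {a b : G} (ha : a ∈ pc V) (hb : b ∈ pc V) : ⁅b, a⁆ = ⁅a, b⁆ := by
  rw [← commutatorElement_inv, D.inv_eq (D.comm_mem ha hb)]

include D in
lemma comm_mulL {a a' b : G} (ha : a ∈ pc V) (ha' : a' ∈ pc V) (hb : b ∈ pc V) :
    ⁅a * a', b⁆ = ⁅a, b⁆ * ⁅a', b⁆ := by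
  have e : ⁅a * a', b⁆ = a * ⁅a', b⁆ * a⁻¹ * ⁅a, b⁆ := by
    simp only [commutatorElement_def]; group
  rw [e, pc_comm ha (D.comm_mem ha' hb), mul_inv_cancel_right,
    D.comm (D.comm_mem ha' hb) (D.comm_mem ha hb)]

include D in
lemma comm_mulR {a b b' : G} (ha : a ∈ pc V) (hb : b ∈ pc V) (hb' : b' ∈ pc V) :
    ⁅a, b * b'⁆ = ⁅a, b⁆ * ⁅a, b'⁆ := by
  rw [D.comm_symm (mul_mem hb hb') ha, D.comm_mulL hb hb' ha, D.comm_symm ha hb,
    D.comm_symm ha hb']

end Data

end Cfsg.Agent.Screen.TISub
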