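import Cfsg.Agent.Screen.TISub.Adjacent
import Cfsg.Agent.Screen.TISub.Alt

/-!
# The transvection sets of an adjacent pair are closed under `a ↦ a b⁻¹ a`; the pairing of two
regular partners is therefore an alternative division algebra, hence a field.
-/

set_option autoImplicit false
set_option linter.style.haveILetI false
set_option linter.unusedSectionVars false
set_option linter.unusedVariables false

namespace Cfsg.Agent.Screen.TISub

open Subgroup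
open scoped commutatorElement

variable {G : Type*} [Group G] [Finite G]

namespace Data

variable {V U U' : Subgroup G} (D : Data V)

include D in
lemma comm_inj (hA : Adj V U) {f : G} (hf : f ∈ pc V) (hfU : ¬ ∀ u ∈ U, f * u = u * f)
    {u w : G} (hu : u ∈ U) (hw : w ∈ U) (h : ⁅f, u⁆ = ⁅f, w⁆) : u = w := by
  have hD := D.adj_data hA
  have h1 : ⁅f, u * w⁆ = 1 := by
    rw [D.comm_mulR hf (D.adj_le_pc hA hu) (D.adj_le_pc hA hw), h,
      D.sq (D.comm_mem hf (D.adj_le_pc hA hw))]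
  by_contra hne
  have hne' : u * w ≠ 1 := fun e => hne ((mul_eq_one_iff_eq_inv.1 e).trans (hD.inv_eq hw))
  exact hfU fun u' hu' =>
    D.comm_U hA hf (mul_mem hu hw) hne' (commutatorElement_eq_one_iff_mul_comm.1 h1) hu'

include D in
lemma comm_surj (hA : Adj V U) {f : G} (hf : f ∈ pc V) (hfU : ¬ ∀ u ∈ U, f * u = u * f)
    {v : G} (hv : v ∈ V) : ∃ u ∈ U, ⁅f, u⁆ = v := by
  let φ : U → V := fun u => ⟨⁅f, (u : G)⁆, D.comm_mem hf (D.adj_le_pc hA u.2)⟩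
  have hφ : Function.Injective φ := fun a b hab =>
    Subtype.ext (D.comm_inj hA hf hfU a.2 b.2 (congrArg Subtype.val hab))
  obtain ⟨u, hu⟩ := ((Nat.bijective_iff_injective_and_card φ).2 ⟨hφ, D.adj_card hA⟩).2 ⟨v, hv⟩
  exact ⟨u, u.2, congrArg Subtype.val hu⟩

include D in
/-- Transvections fixing `V` invert to transvections fixing `U`. -/
lemma inv_map (hA : Adj V U) {f : G} (hf : f ∈ pc V) (hfU : ¬ ∀ u ∈ U, f * u = u * f) :
    ∃ g ∈ pc U, ∀ u ∈ U, ⁅g, ⁅f, u⁆⁆ = u := by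
  have hD := D.adj_data hA
  have hB := D.back hA
  obtain ⟨u1, hu1, hu11⟩ := (Subgroup.bot_or_exists_ne_one U).resolve_left hD.ne_bot
  have hv1 := D.comm_mem hf (D.adj_le_pc hA hu1)
  have hv11 : ⁅f, u1⁆ ≠ 1 := fun e => hfU fun u hu =>
    D.comm_U hA hf hu1 hu11 (commutatorElement_eq_one_iff_mul_comm.1 e) hu
  obtain ⟨g, hg, hgv⟩ := hD.surj hB hv1 hv11 hu1
  have hsame : cj f U = cj g V := by
    obtain ⟨x, hx⟩ := hA.1
    have e1 : f * u1 * f⁻¹ = g * ⁅f, u1⁆ * g⁻¹ := by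
      rw [conj_eq_comm_mul, conj_eq_comm_mul g, hgv, D.adj_comm hA _ hv1 _ hu1]
    rw [hx, cj_cj]
    refine D.eq_of_mem ?_ (conj_mem_cj g hv1) ?_
    · rw [← e1, ← cj_cj, ← hx]; exact conj_mem_cj f hu1
    · intro e
      apply hv11
      calc ⁅f, u1⁆ = g⁻¹ * (g * ⁅f, u1⁆ * g⁻¹) * g := by group
        _ = 1 := by rw [e]; group
  refine ⟨g, hg, fun u hu => ?_⟩
  have hfu := D.comm_mem hf (D.adj_le_pc hA hu)
  have hmem : f * u * f⁻¹ ∈ cj g V := hsame ▸ conj_mem_cj f hu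
  obtain ⟨v, hv, he⟩ : ∃ v ∈ V, f * u * f⁻¹ = g * v * g⁻¹ :=
    ⟨_, mem_cj.1 hmem, by group⟩
  have hgvU : ⁅g, v⁆ ∈ U := hD.comm_mem hg (hD.adj_le_pc hB hv)
  rw [conj_eq_comm_mul, conj_eq_comm_mul g, ← D.adj_comm hA v hv _ hgvU] at he
  have e2 : v⁻¹ * ⁅f, u⁆ = ⁅g, v⁆ * u⁻¹ := by
    calc v⁻¹ * ⁅f, u⁆ = v⁻¹ * (⁅f, u⁆ * u) * u⁻¹ := by group
      _ = ⁅g, v⁆ * u⁻¹ := by rw [he]; group
  have h1 : v⁻¹ * ⁅f, u⁆ = 1 :=
    D.adj_inf hA (e2 ▸ mul_mem hgvU (inv_mem hu)) (mul_mem (inv_mem hv) hfu)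
  rw [h1] at e2
  rw [← inv_mul_eq_one.1 h1]
  exact mul_inv_eq_one.1 e2.symm

include D in
/-- Hua's identity: the set of transvections is closed under `a b⁻¹ a`. -/
lemma hua (hA : Adj V U) {a b : G} (ha : a ∈ pc V) (hb : b ∈ pc V)
    (hbU : ¬ ∀ u ∈ U, b * u = u * b) :
    ∃ c ∈ pc V, ∀ u ∈ U, ∀ w ∈ U, ⁅a, u⁆ = ⁅b, w⁆ → ⁅c, u⁆ = ⁅a, w⁆ := by
  have hD := D.adj_data hA
  have hB := D.back hA
  have hUP := D.adj_le_pc hA
  by_cases haU : ∀ u ∈ U, a * u = u * a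
  · refine ⟨1, one_mem _, fun u hu w hw h => ?_⟩
    rw [commutatorElement_one_left, commutatorElement_eq_one_iff_mul_comm.2 (haU w hw)]
  by_cases hdU : ∀ u ∈ U, a * b * u = u * (a * b)
  · refine ⟨a, ha, fun u hu w hw h => ?_⟩
    have h1 := commutatorElement_eq_one_iff_mul_comm.2 (hdU u hu)
    rw [D.comm_mulL ha hb (hUP hu)] at h1
    have h2 : ⁅a, u⁆ = ⁅b, u⁆ :=
      (mul_eq_one_iff_eq_inv.1 h1).trans (D.inv_eq (D.comm_mem hb (hUP hu)))
    rw [h2] at h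
    rw [D.comm_inj hA hb hbU hu hw h]
  have hd : a * b ∈ pc V := mul_mem ha hb
  obtain ⟨ga, hga, hga'⟩ := D.inv_map hA ha haU
  obtain ⟨gd, hgd, hgd'⟩ := D.inv_map hA hd hdU
  have hVP := hD.adj_le_pc hB
  have hgV : ¬ ∀ v ∈ V, ga * gd * v = v * (ga * gd) := by
    intro hg
    obtain ⟨u1, hu1, hu11⟩ := (Subgroup.bot_or_exists_ne_one U).resolve_left hD.ne_bot
    have hv := D.comm_mem ha (hUP hu1)
    have h1 := commutatorElement_eq_one_iff_mul_comm.2 (hg _ hv)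
    rw [hD.comm_mulL hga hgd (hVP hv), hga' u1 hu1] at h1
    have h2 : ⁅gd, ⁅a, u1⁆⁆ = u1 := by
      rw [(mul_eq_one_iff_inv_eq.1 h1).symm]; exact hD.inv_eq hu1
    obtain ⟨x, hx, hxd⟩ := D.comm_surj hA hd hdU hv
    have h3 := hgd' x hx
    rw [hxd, h2] at h3
    subst h3
    rw [D.comm_mulL ha hb (hUP hu1), mul_eq_left] at hxd
    exact hbU fun u hu =>
      D.comm_U hA hb hu1 hu11 (commutatorElement_eq_one_iff_mul_comm.1 hxd) hu
  obtain ⟨k, hk, hk'⟩ := hD.inv_map hB (mul_mem hga hgd) hgV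
  refine ⟨a * k, mul_mem ha hk, fun u hu w hw h => ?_⟩
  have huw : u * w ∈ U := mul_mem hu hw
  set v := ⁅a, u * w⁆ with hv
  have hvV : v ∈ V := D.comm_mem ha (hUP huw)
  have e1 : ⁅ga, v⁆ = u * w := hga' _ huw
  have e2 : ⁅gd, v⁆ = w := by
    have : ⁅a * b, w⁆ = v := by
      rw [D.comm_mulL ha hb (hUP hw), ← h, hv, D.comm_mulR ha (hUP hu) (hUP hw),
        D.comm (D.comm_mem ha (hUP hw)) (D.comm_mem ha (hUP hu))]
    rw [← this]; exact hgd' w hw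
  have e3 : ⁅ga * gd, v⁆ = u := by
    rw [hD.comm_mulL hga hgd (hVP hvV), e1, e2, mul_assoc, hD.sq hw, mul_one]
  have e4 : ⁅k, u⁆ = v := by rw [← e3]; exact hk' v hvV
  rw [D.comm_mulL ha hk (hUP hu), e4, hv, D.comm_mulR ha (hUP hu) (hUP hw), ← mul_assoc,
    D.sq (D.comm_mem ha (hUP hu)), one_mul]

include D in
/-- Every transvection is realised by the partner. -/
lemma exists_rep (hA : Adj V U) (hA' : Adj V U') (hR : Reg U U') {a : G} (ha : a ∈ pc V) :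
    ∃ c ∈ U', ∀ u ∈ U, ⁅c, u⁆ = ⁅a, u⁆ := by
  obtain ⟨c, hc, hcu⟩ := D.decomp hA hA' hR ha
  refine ⟨c, hc, fun u hu => ?_⟩
  have hcP := D.adj_le_pc hA' hc
  have huP := D.adj_le_pc hA hu
  have h := commutatorElement_eq_one_iff_mul_comm.2 (hcu u hu)
  rw [D.comm_mulL ha hcP huP] at h
  exact ((mul_eq_one_iff_eq_inv.1 h).trans (D.inv_eq (D.comm_mem hcP huP))).symm

include D in
lemma reg_inj (hA : Adj V U) (hA' : Adj V U') (hR : Reg U U') {u : G} (hu : u ∈ U) (hu1 : u ≠ 1)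
    {a b : G} (ha : a ∈ U') (hb : b ∈ U') (h : ⁅a, u⁆ = ⁅b, u⁆) : a = b := by
  have huP := D.adj_le_pc hA hu
  have h1 : ⁅a * b, u⁆ = 1 := by
    rw [D.comm_mulL (D.adj_le_pc hA' ha) (D.adj_le_pc hA' hb) huP, h,
      D.sq (D.comm_mem (D.adj_le_pc hA' hb) huP)]
  exact (mul_eq_one_iff_eq_inv.1
    (hR u hu hu1 _ (mul_mem ha hb) (commutatorElement_eq_one_iff_mul_comm.1 h1))).trans
      ((D.adj_data hA').inv_eq hb)

include D in
/-- Coordinates: a field `F`, `g : F → V` and `ν : F → U` with `g` an isomorphism of the additive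
group onto `V`, and for each `a ∈ P` a scalar `c` with `[a, ν d] = g (c d)`. -/
theorem exists_coord (hA : Adj V U) : ∃ (F : Type) (_ : Field F) (_ : Fintype F) (g ν : F → G),
    Fintype.card F = Nat.card V ∧ (∀ d, g d ∈ V) ∧ (∀ d, ν d ∈ U) ∧
    (∀ c d, g (c + d) = g c * g d) ∧ (∀ c d, ν (c + d) = ν c * ν d) ∧
    Function.Injective g ∧ Function.Injective ν ∧ (∀ v ∈ V, ∃ d, g d = v) ∧
    (∀ u ∈ U, ∃ d, ν d = u) ∧
    (∀ a ∈ pc V, ∃ c, ∀ d, ⁅a, ν d⁆ = g (c * d)) ∧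
    (∀ c, ∃ a ∈ pc V, ∀ d, ⁅a, ν d⁆ = g (c * d)) := by
  obtain ⟨U', hA', hR⟩ := D.exists_partner hA
  obtain ⟨u0, hu0, hu01⟩ := (Subgroup.bot_or_exists_ne_one U).resolve_left (D.adj_data hA).ne_bot
  obtain ⟨a0, ha0, ha01⟩ :=
    (Subgroup.bot_or_exists_ne_one U').resolve_left (D.adj_data hA').ne_bot
  have hUP := D.adj_le_pc hA
  have hUP' := D.adj_le_pc hA'
  -- the two parametrisations
  choose α hαm hα using fun v : V => D.reg_surj hA hA' hR hu0 hu01 v.2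
  choose β hβm hβ' using fun v : V => D.reg_surj hA' hA hR.symm ha0 ha01 v.2
  have hβ : ∀ v : V, ⁅a0, β v⁆ = v := fun v => by
    rw [D.comm_symm (hUP (hβm v)) (hUP' ha0), hβ']
  have hαu : ∀ {a : G}, a ∈ U' → ∀ {v : V}, ⁅a, u0⁆ = v → α v = a := fun ha v h =>
    D.reg_inj hA hA' hR hu0 hu01 (hαm _) ha ((hα _).trans h.symm)
  have hβu : ∀ {u : G}, u ∈ U → ∀ {v : V}, ⁅a0, u⁆ = v → β v = u := fun {u} hu v h =>
    D.reg_inj hA' hA hR.symm ha0 ha01 (hβm _) hu ((hβ' _).trans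
      ((D.comm_symm (hUP' ha0) (hUP hu)).trans h).symm)
  have hαmul : ∀ v w : V, α (v * w) = α v * α w := fun v w => hαu (mul_mem (hαm v) (hαm w)) (by
    rw [D.comm_mulL (hUP' (hαm v)) (hUP' (hαm w)) (hUP hu0), hα, hα]; rfl)
  have hβmul : ∀ v w : V, β (v * w) = β v * β w := fun v w => hβu (mul_mem (hβm v) (hβm w)) (by
    rw [D.comm_mulR (hUP' ha0) (hUP (hβm v)) (hUP (hβm w)), hβ, hβ]; rfl)
  have hα1 : ∀ v : V, α v = 1 → v = 1 := fun v h => Subtype.ext (by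
    rw [← hα v, h, commutatorElement_one_left]; rfl)
  have hβ1 : ∀ v : V, β v = 1 → v = 1 := fun v h => Subtype.ext (by
    rw [← hβ v, h, commutatorElement_one_right]; rfl)
  haveI : IsMulCommutative ↥V := D.elem.1
  letI : CommGroup ↥V := { (inferInstance : Group ↥V) with mul_comm := fun a b => mul_comm' a b }
  let mV : V → V → V := fun x y => ⟨⁅α x, β y⁆, D.comm_mem (hUP' (hαm x)) (hUP (hβm y))⟩
  let e : V := ⟨⁅a0, u0⁆, D.comm_mem (hUP' ha0) (hUP hu0)⟩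
  have hαe : α e = a0 := hαu ha0 rfl
  have hβe : β e = u0 := hβu hu0 rfl
  have hmeR : ∀ x : V, ⁅α x, u0⁆ = (x : G) := hα
  have hno0 : ¬ ∀ u ∈ U, a0 * u = u * a0 := fun h =>
    ha01 (hR u0 hu0 hu01 a0 ha0 (h u0 hu0))
  have hnou : ∀ u ∈ U, u ≠ 1 → ¬ ∀ a ∈ U', u * a = a * u := fun u hu hu1 h =>
    ha01 (hR u hu hu1 a0 ha0 (h a0 ha0).symm)
  -- closure of the left and right multiplications
  have hL : ∀ x : V, ∃ z, ∀ w, mV x (mV x w) = mV z w := by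
    intro x
    obtain ⟨c, hc, hc'⟩ := D.hua hA (hUP' (hαm x)) (hUP' ha0) hno0
    obtain ⟨c2, hc2, hc2'⟩ := D.exists_rep hA hA' hR hc
    refine ⟨⟨⁅c2, u0⁆, D.comm_mem (hUP' hc2) (hUP hu0)⟩, fun w => Subtype.ext ?_⟩
    show ⁅α x, β (mV x w)⁆ = ⁅α _, β w⁆
    rw [(hαu hc2 rfl : α ⟨⁅c2, u0⁆, D.comm_mem (hUP' hc2) (hUP hu0)⟩ = c2), hc2' _ (hβm w)]
    exact (hc' _ (hβm w) _ (hβm _) (hβ (mV x w)).symm).symm
  have hRc : ∀ x : V, ∃ z, ∀ y, mV (mV y x) x = mV y z := by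
    intro x
    obtain ⟨c, hc, hc'⟩ := D.hua hA' (hUP (hβm x)) (hUP hu0) (hnou u0 hu0 hu01)
    obtain ⟨c2, hc2, hc2'⟩ := D.exists_rep hA' hA hR.symm hc
    refine ⟨⟨⁅a0, c2⁆, D.comm_mem (hUP' ha0) (hUP hc2)⟩, fun y => Subtype.ext ?_⟩
    show ⁅α (mV y x), β x⁆ = ⁅α y, β _⁆
    rw [(hβu hc2 rfl : β ⟨⁅a0, c2⁆, D.comm_mem (hUP' ha0) (hUP hc2)⟩ = c2), D.comm_symm (hUP hc2) (hUP' (hαm y)), hc2' _ (hαm y),
      hc' _ (hαm y) _ (hαm (mV y x)) ?_, D.comm_symm (hUP (hβm x)) (hUP' (hαm _))]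
    rw [D.comm_symm (hUP' (hαm y)) (hUP (hβm x)), D.comm_symm (hUP' (hαm _)) (hUP hu0), hα]
  have hM : ∀ x w : V, ∃ z, ∀ y, mV (mV (mV y x) w) x = mV y z := by
    intro x w
    have hbase : ∀ z : V, z = 1 → ∀ y, mV y z = 1 := fun z hz y => Subtype.ext (by
      have : β z = 1 := by
        rw [hz]; exact hβu (one_mem _) (by rw [commutatorElement_one_right]; rfl)
      show ⁅α y, β z⁆ = 1
      rw [this, commutatorElement_one_right])
    have hα11 : α 1 = 1 := hαu (one_mem _) (by rw [commutatorElement_one_left]; rfl)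
    by_cases hx : x = 1
    · exact ⟨1, fun y => by rw [hbase _ rfl, hbase _ hx]⟩
    by_cases hw : w = 1
    · refine ⟨1, fun y => ?_⟩
      rw [hbase _ rfl, hbase _ hw]
      apply Subtype.ext
      show ⁅α 1, β x⁆ = 1
      rw [hα11, commutatorElement_one_left]
    obtain ⟨c, hc, hc'⟩ := D.hua hA' (hUP hu0) (hUP (hβm w))
      (hnou _ (hβm w) fun h => hw (hβ1 _ h))
    have H1 : ∀ t : V, ⁅c, α (mV t w)⁆ = t := fun t => by
      rw [hc' _ (hαm _) _ (hαm t) ?_, D.comm_symm (hUP' (hαm t)) (hUP hu0), hα]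
      rw [D.comm_symm (hUP' (hαm _)) (hUP hu0), hα, D.comm_symm (hUP' (hαm t)) (hUP (hβm w))]
    obtain ⟨c', hc'm, hc'u⟩ := D.exists_rep hA' hA hR.symm hc
    have hcU : c' ≠ 1 := fun h => by
      have h1 := hc'u _ (hαm (mV e w))
      rw [h, commutatorElement_one_left, H1] at h1
      exact ha01 (by rw [← hαe]; exact (Subtype.ext h1.symm : e = 1) ▸ hα11)
    obtain ⟨c2, hc2, hc2'⟩ := D.hua hA' (hUP (hβm x)) (hUP hc'm) (hnou c' hc'm hcU)
    obtain ⟨c3, hc3, hc3'⟩ := D.exists_rep hA' hA hR.symm hc2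
    refine ⟨⟨⁅a0, c3⁆, D.comm_mem (hUP' ha0) (hUP hc3)⟩, fun y => Subtype.ext ?_⟩
    show ⁅α (mV (mV y x) w), β x⁆ = ⁅α y, β _⁆
    rw [(hβu hc3 rfl : β ⟨⁅a0, c3⁆, D.comm_mem (hUP' ha0) (hUP hc3)⟩ = c3), D.comm_symm (hUP hc3) (hUP' (hαm y)), hc3' _ (hαm y),
      hc2' _ (hαm y) _ (hαm (mV (mV y x) w)) ?_, D.comm_symm (hUP (hβm x)) (hUP' (hαm _))]
    rw [hc'u _ (hαm _), H1, D.comm_symm (hUP' (hαm y)) (hUP (hβm x))]
  let A : AltMul (Additive V) :=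
    { m := fun x y => Additive.ofMul (mV x.toMul y.toMul)
      e := Additive.ofMul e
      e_ne := fun h => by
        have h' : e = 1 := h
        exact ha01 (by rw [← hαe, h']; exact hαu (one_mem _) (by
          rw [commutatorElement_one_left]; rfl))
      char_two := fun a => Subtype.ext (D.sq a.toMul.2)
      addL := fun a b c => Subtype.ext (by
        show ⁅α (a.toMul * b.toMul), β c.toMul⁆ = ⁅α a.toMul, β c.toMul⁆ * ⁅α b.toMul, β c.toMul⁆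
        rw [hαmul, D.comm_mulL (hUP' (hαm _)) (hUP' (hαm _)) (hUP (hβm _))])
      addR := fun a b c => Subtype.ext (by
        show ⁅α a.toMul, β (b.toMul * c.toMul)⁆ = ⁅α a.toMul, β b.toMul⁆ * ⁅α a.toMul, β c.toMul⁆
        rw [hβmul, D.comm_mulR (hUP' (hαm _)) (hUP (hβm _)) (hUP (hβm _))])
      eL := fun a => Subtype.ext (by
        show ⁅α e, β a.toMul⁆ = (a.toMul : G)
        rw [hαe, hβ])
      eR := fun a => Subtype.ext (by
        show ⁅α a.toMul, β e⁆ = (a.toMul : G)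
        rw [hβe, hα])
      nzd := fun a b h => by
        have h' : ⁅α a.toMul, β b.toMul⁆ = 1 := congrArg (fun z : Additive V => (z.toMul : G)) h
        by_cases hb : β b.toMul = 1
        · exact Or.inr (hβ1 _ hb)
        · exact Or.inl (hα1 _ (hR _ (hβm _) hb _ (hαm _)
            (commutatorElement_eq_one_iff_mul_comm.1 h')))
      hL := fun x => (hL x.toMul).imp fun z hz w => congrArg Additive.ofMul (hz w.toMul)
      hR := fun x => (hRc x.toMul).imp fun z hz w => congrArg Additive.ofMul (hz w.toMul)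
      hM := fun x w => (hM x.toMul w.toMul).imp fun z hz y =>
        congrArg Additive.ofMul (hz y.toMul) }
  obtain ⟨F, fF, tF, f, -, hfm⟩ := A.exists_field
  refine ⟨F, fF, tF, fun d => ((f d).toMul : V), fun d => β (f d).toMul, ?_, fun d => (f d).toMul.2,
    fun d => hβm _, fun c d => ?_, fun c d => ?_, fun c d h => f.injective ?_,
    fun c d h => f.injective ?_, fun v hv => ⟨f.symm (Additive.ofMul ⟨v, hv⟩), by simp⟩,
    fun u hu => ⟨f.symm (Additive.ofMul ⟨⁅a0, u⁆, D.comm_mem (hUP' ha0) (hUP hu)⟩), ?_⟩,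
    fun a ha => ?_, fun c => ?_⟩
  · rw [← Nat.card_eq_fintype_card]
    exact Nat.card_congr (f.toEquiv.trans Additive.toMul)
  · show ((f (c + d)).toMul : G) = _
    rw [map_add]; rfl
  · show β (f (c + d)).toMul = _
    rw [map_add]; exact hβmul _ _
  · exact Additive.toMul.injective (Subtype.ext h)
  · apply Additive.toMul.injective
    apply Subtype.ext
    rw [← hβ (f c).toMul, ← hβ (f d).toMul]
    exact congrArg (fun z => ⁅a0, z⁆) h
  · show β (f (f.symm _)).toMul = u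
    rw [AddEquiv.apply_symm_apply]
    exact hβu hu rfl
  · obtain ⟨a', ha'm, ha'⟩ := D.exists_rep hA hA' hR ha
    refine ⟨f.symm (Additive.ofMul ⟨⁅a', u0⁆, D.comm_mem (hUP' ha'm) (hUP hu0)⟩), fun d => ?_⟩
    show ⁅a, β (f d).toMul⁆ = ((f (_ * d)).toMul : G)
    rw [hfm, AddEquiv.apply_symm_apply, ← ha' _ (hβm _)]
    show _ = ⁅α _, β (f d).toMul⁆
    rw [show α (Additive.toMul (Additive.ofMul (⟨⁅a', u0⁆, _⟩ : V))) = a' from hαu ha'm rfl]
  · refine ⟨α (f c).toMul, hUP' (hαm _), fun d => ?_⟩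
    show _ = ((f (c * d)).toMul : G)
    rw [hfm]; rfl

end Data

end Cfsg.Agent.Screen.TISub
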